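import Mathlib

set_option autoImplicit false

/-! Rung IDL of helper78's ladder KULS (S4648): in a finite dimensional algebra `A` with nilpotent
ideal `J` and `A / J` a full matrix algebra of degree `n`, a nonzero ideal generated by a central
element has dimension at least `n ^ 2`. -/

namespace Cfsg.Agent.Lib.Helper54.Kuls

open Module

section
variable {A : Type*} [Ring A] (J : Ideal A) [J.IsTwoSided]

/-- pushing a nonzero element of a right-stable set into the right annihilator of `J` -/
theorem exists_right_killed (S : Set A) (hS : ∀ w ∈ S, ∀ a : A, w * a ∈ S) (k : ℕ) :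
    ∀ w ∈ S, w ≠ 0 → (∀ x ∈ J ^ k, w * x = 0) → ∃ w' ∈ S, w' ≠ 0 ∧ ∀ j ∈ J, w' * j = 0 := by
  induction k with
  | zero =>
    intro w _ hw0 hk
    exfalso
    apply hw0
    have := hk 1 (by rw [Submodule.pow_zero, Ideal.one_eq_top]; trivial)
    rwa [mul_one] at this
  | succ k ih =>
    intro w hw hw0 hk
    by_cases hall : ∀ j ∈ J, w * j = 0
    · exact ⟨w, hw, hw0, hall⟩
    · push Not at hall
      obtain ⟨j, hj, hwj⟩ := hall
      refine ih (w * j) (hS w hw j) hwj ?_
      intro x hx
      rw [mul_assoc]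
      apply hk
      rw [Ideal.IsTwoSided.pow_succ]
      exact Ideal.mul_mem_mul hj hx

theorem exists_left_killed (S : Set A) (hS : ∀ w ∈ S, ∀ a : A, a * w ∈ S) (k : ℕ) :
    ∀ w ∈ S, w ≠ 0 → (∀ x ∈ J ^ k, x * w = 0) → ∃ w' ∈ S, w' ≠ 0 ∧ ∀ j ∈ J, j * w' = 0 := by
  induction k with
  | zero =>
    intro w _ hw0 hk
    exfalso
    apply hw0
    have := hk 1 (by rw [Submodule.pow_zero, Ideal.one_eq_top]; trivial)
    rwa [one_mul] at this
  | succ k ih =>
    intro w hw hw0 hk
    by_cases hall : ∀ j ∈ J, j * w = 0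
    · exact ⟨w, hw, hw0, hall⟩
    · push Not at hall
      obtain ⟨j, hj, hwj⟩ := hall
      refine ih (j * w) (hS w hw j) hwj ?_
      intro x hx
      rw [← mul_assoc]
      apply hk
      rw [Submodule.pow_succ]
      exact Ideal.mul_mem_mul hx hj

end

theorem ideal_bound {F A : Type*} [Field F] [Ring A] [Algebra F A] [FiniteDimensional F A]
    {n : ℕ} (π : A →ₐ[F] Matrix (Fin n) (Fin n) F) (hπ : Function.Surjective π)
    (J : Ideal A) [J.IsTwoSided] (hJ : IsNilpotent J) (hker : ∀ a, π a = 0 ↔ a ∈ J)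
    (z : A) (hzc : ∀ x, z * x = x * z) (hz0 : z ≠ 0) :
    n ^ 2 ≤ finrank F (LinearMap.range (LinearMap.mulLeft F z)) := by
  classical
  obtain ⟨N, hN⟩ := hJ
  have hbot : ∀ x ∈ J ^ N, x = 0 := by
    intro x hx
    rw [hN] at hx
    simpa using hx
  -- step 1
  obtain ⟨w₁, ⟨b₁, hb₁⟩, hw₁0, hw₁⟩ := exists_right_killed J {w | ∃ b, w = z * b}
    (by rintro w ⟨b, rfl⟩ a; exact ⟨b * a, by rw [mul_assoc]⟩) N z ⟨1, by rw [mul_one]⟩ hz0
    (by intro x hx; rw [hbot x hx, mul_zero])
  obtain ⟨w, ⟨⟨b, hb⟩, hwR⟩, hw0, hwL⟩ := exists_left_killed J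
    {w | (∃ b, w = z * b) ∧ ∀ j ∈ J, w * j = 0}
    (by
      rintro w ⟨⟨b, rfl⟩, hw⟩ a
      refine ⟨⟨a * b, by rw [← mul_assoc, ← mul_assoc, hzc a]⟩, ?_⟩
      intro j hj
      rw [mul_assoc, hw j hj, mul_zero]) N w₁ ⟨⟨b₁, hb₁⟩, hw₁⟩ hw₁0
    (by intro x hx; rw [hbot x hx, zero_mul])
  have hL : ∀ x y : A, π x = π y → x * w = y * w := by
    intro x y hxy
    have h1 : x - y ∈ J := by rw [← hker, map_sub, hxy, sub_self]
    have h2 := hwL _ h1
    rwa [sub_mul, sub_eq_zero] at h2
  have hR : ∀ x y : A, π x = π y → w * x = w * y := by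
    intro x y hxy
    have h1 : x - y ∈ J := by rw [← hker, map_sub, hxy, sub_self]
    have h2 := hwR _ h1
    rwa [mul_sub, sub_eq_zero] at h2
  -- step 2
  choose a ha using fun i j : Fin n => hπ (Matrix.single i j 1)
  have he : π (∑ i, a i i) = π 1 := by
    rw [map_sum, map_one]
    simp only [ha]
    exact Matrix.sum_single_one
  have hw_eq : w = ∑ i, ∑ j, a i i * w * a j j := by
    have h1 : (∑ i, a i i) * w = w := by rw [hL _ _ he, one_mul]
    have h2 : w * (∑ j, a j j) = w := by rw [hR _ _ he, mul_one]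
    calc w = (∑ i, a i i) * w * (∑ j, a j j) := by rw [h1, h2]
      _ = ∑ i, ∑ j, a i i * w * a j j := by
        rw [Finset.sum_mul, Finset.sum_mul]
        apply Finset.sum_congr rfl
        intro i _
        rw [Finset.mul_sum]
  obtain ⟨r, s, hrs⟩ : ∃ r s, a r r * w * a s s ≠ 0 := by
    by_contra hall
    push Not at hall
    apply hw0
    rw [hw_eq]
    exact Finset.sum_eq_zero fun i _ => Finset.sum_eq_zero fun j _ => hall i j
  -- step 3
  have hli : LinearIndependent F (fun kl : Fin n × Fin n => a kl.1 r * w * a s kl.2) := by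
    rw [Fintype.linearIndependent_iff]
    intro c hc kl0
    have h1 : a r kl0.1 * (∑ kl : Fin n × Fin n, c kl • (a kl.1 r * w * a s kl.2)) * a kl0.2 s = 0 := by
      rw [hc, mul_zero, zero_mul]
    rw [Finset.mul_sum, Finset.sum_mul, Finset.sum_eq_single kl0] at h1
    · have e1 : a r kl0.1 * a kl0.1 r * w = a r r * w := by
        apply hL
        rw [map_mul, ha, ha, ha, Matrix.single_mul_single_same, mul_one]
      have e2 : w * (a s kl0.2 * a kl0.2 s) = w * a s s := by
        apply hR
        rw [map_mul, ha, ha, ha, Matrix.single_mul_single_same, mul_one]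
      have e3 : a r kl0.1 * c kl0 • (a kl0.1 r * w * a s kl0.2) * a kl0.2 s =
          c kl0 • (a r r * w * a s s) := by
        rw [mul_smul_comm, smul_mul_assoc]
        congr 1
        calc a r kl0.1 * (a kl0.1 r * w * a s kl0.2) * a kl0.2 s
            = (a r kl0.1 * a kl0.1 r * w) * (a s kl0.2 * a kl0.2 s) := by simp only [mul_assoc]
          _ = a r r * (w * (a s kl0.2 * a kl0.2 s)) := by rw [e1, mul_assoc]
          _ = a r r * w * a s s := by rw [e2, mul_assoc]
      rw [e3] at h1
      exact (smul_eq_zero.mp h1).resolve_right hrs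
    · intro kl _ hne
      rw [mul_smul_comm, smul_mul_assoc]
      have : a r kl0.1 * (a kl.1 r * w * a s kl.2) * a kl0.2 s = 0 := by
        by_cases h1 : kl0.1 = kl.1
        · have h2 : kl.2 ≠ kl0.2 := by
            intro h2
            exact hne (Prod.ext h1.symm h2)
          have e2 : w * (a s kl.2 * a kl0.2 s) = w * 0 := by
            apply hR
            rw [map_mul, ha, ha, map_zero, Matrix.single_mul_single_of_ne _ _ _ _ h2]
          calc a r kl0.1 * (a kl.1 r * w * a s kl.2) * a kl0.2 s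
              = a r kl0.1 * a kl.1 r * (w * (a s kl.2 * a kl0.2 s)) := by simp only [mul_assoc]
            _ = 0 := by rw [e2, mul_zero, mul_zero]
        · have e1 : a r kl0.1 * a kl.1 r * w = 0 * w := by
            apply hL
            rw [map_mul, ha, ha, map_zero, Matrix.single_mul_single_of_ne _ _ _ _ h1]
          calc a r kl0.1 * (a kl.1 r * w * a s kl.2) * a kl0.2 s
              = (a r kl0.1 * a kl.1 r * w) * (a s kl.2 * a kl0.2 s) := by simp only [mul_assoc]
            _ = 0 := by rw [e1, zero_mul, zero_mul]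
      rw [this, smul_zero]
    · intro h
      exact absurd (Finset.mem_univ _) h
  have hcard := finrank_span_eq_card hli
  rw [Fintype.card_prod, Fintype.card_fin] at hcard
  rw [sq, ← hcard]
  apply Submodule.finrank_mono
  rw [Submodule.span_le]
  rintro _ ⟨kl, rfl⟩
  refine ⟨a kl.1 r * b * a s kl.2, ?_⟩
  simp only [LinearMap.mulLeft_apply]
  rw [hb, ← mul_assoc, ← mul_assoc, ← mul_assoc, hzc (a kl.1 r)]

end Cfsg.Agent.Lib.Helper54.Kuls
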