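import Mathlib

set_option autoImplicit false

/-! Rung WED of helper78's ladder KULS (S4648): a finite dimensional algebra over an algebraically
closed field with at most one (up to scalars) trace form vanishing on nilpotent elements is a full
matrix algebra modulo its radical. -/

namespace Cfsg.Agent.Lib.Helper54.Kuls

open Module

theorem exists_matrix_quot {F A : Type*} [Field F] [IsAlgClosed F] [Ring A] [Algebra F A]
    [FiniteDimensional F A] [Nontrivial A]
    (hl : ∀ f₁ f₂ : A →ₗ[F] F, (∀ x y, f₁ (x * y) = f₁ (y * x)) →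
      (∀ x y, f₂ (x * y) = f₂ (y * x)) → (∀ x, IsNilpotent x → f₁ x = 0) →
      (∀ x, IsNilpotent x → f₂ x = 0) → ¬ LinearIndependent F ![f₁, f₂]) :
    ∃ (n : ℕ) (_ : NeZero n) (π : A →ₐ[F] Matrix (Fin n) (Fin n) F),
      Function.Surjective π ∧ ∀ a, π a = 0 ↔ a ∈ Ring.jacobson A := by
  have hart : IsArtinianRing A := IsArtinianRing.of_finite F A
  obtain ⟨m, d, hd, ⟨e⟩⟩ :=
    IsSemisimpleRing.exists_algEquiv_pi_matrix_of_isAlgClosed F (A ⧸ Ring.jacobson A)
  let π : A →ₐ[F] (Π i, Matrix (Fin (d i)) (Fin (d i)) F) :=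
    (e : (A ⧸ Ring.jacobson A) →ₐ[F] _).comp (Ideal.Quotient.mkₐ F (Ring.jacobson A))
  have hπ : Function.Surjective π :=
    e.surjective.comp (Ideal.Quotient.mkₐ_surjective F (Ring.jacobson A))
  have hker : ∀ a, π a = 0 ↔ a ∈ Ring.jacobson A := by
    intro a
    have : π a = e (Ideal.Quotient.mk _ a) := rfl
    rw [this, map_eq_zero_iff e e.injective, Ideal.Quotient.eq_zero_iff_mem]
  let τ : Fin m → (A →ₗ[F] F) := fun i =>
    (Matrix.traceLinearMap (Fin (d i)) F F) ∘ₗ
      (LinearMap.proj (R := F) (φ := fun i => Matrix (Fin (d i)) (Fin (d i)) F) i) ∘ₗ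
        π.toLinearMap
  have hτa : ∀ i a, τ i a = Matrix.trace (π a i) := fun i a => rfl
  have hτc : ∀ i a b, τ i (a * b) = τ i (b * a) := by
    intro i a b
    rw [hτa, hτa, map_mul, map_mul, Pi.mul_apply, Pi.mul_apply]
    exact Matrix.trace_mul_comm _ _
  have hτn : ∀ i a, IsNilpotent a → τ i a = 0 := by
    intro i a ha
    rw [hτa]
    have h1 : IsNilpotent (π a i) := by
      obtain ⟨N, hN⟩ := ha
      refine ⟨N, ?_⟩
      rw [← Pi.pow_apply, ← map_pow, hN, map_zero, Pi.zero_apply]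
    exact (Matrix.isNilpotent_trace_of_isNilpotent h1).eq_zero
  have hunit : ∀ i, ∃ a, τ i a = 1 ∧ ∀ j, j ≠ i → τ j a = 0 := by
    intro i
    have := hd i
    obtain ⟨a, ha⟩ := hπ (Pi.single i (Matrix.single 0 0 1))
    refine ⟨a, ?_, fun j hj => ?_⟩
    · rw [hτa, ha, Pi.single_eq_same, Matrix.trace_single_eq_same]
    · rw [hτa, ha, Pi.single_eq_of_ne hj, Matrix.trace_zero]
  have hone : ∀ i j : Fin m, i = j := by
    intro i j
    by_contra hij
    obtain ⟨a₁, h11, h1⟩ := hunit i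
    obtain ⟨a₂, h22, h2⟩ := hunit j
    apply hl (τ i) (τ j) (hτc i) (hτc j) (hτn i) (hτn j)
    rw [LinearIndependent.pair_iff]
    intro s t hst
    have e1 := LinearMap.congr_fun hst a₁
    have e2 := LinearMap.congr_fun hst a₂
    simp only [LinearMap.add_apply, LinearMap.smul_apply, LinearMap.zero_apply, smul_eq_mul] at e1 e2
    rw [h11, h1 j (Ne.symm hij), mul_one, mul_zero, add_zero] at e1
    rw [h22, h2 i hij, mul_one, mul_zero, zero_add] at e2
    exact ⟨e1, e2⟩
  have hne : Nonempty (Fin m) := by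
    by_contra h
    rw [not_nonempty_iff] at h
    have h1 : (1 : A) ∈ Ring.jacobson A := by
      rw [← hker]
      exact Subsingleton.elim _ _
    have h2 : Ring.jacobson A = ⊤ := (Ideal.eq_top_iff_one _).mpr h1
    have hJ : IsNilpotent (Ring.jacobson A) := IsSemiprimaryRing.isNilpotent
    obtain ⟨N, hN⟩ := hJ
    have h3 : ∀ k : ℕ, (1 : A) ∈ Ring.jacobson A ^ k := by
      intro k
      induction k with
      | zero => rw [Submodule.pow_zero, Ideal.one_eq_top]; trivial
      | succ k ih =>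
        rw [Submodule.pow_succ]
        have := Ideal.mul_mem_mul ih h1
        rwa [mul_one] at this
    have h4 := h3 N
    rw [hN] at h4
    have h5 : (1 : A) = 0 := by simpa using h4
    exact one_ne_zero h5
  obtain ⟨i₀⟩ := hne
  have := hd i₀
  let π₀ : A →ₐ[F] Matrix (Fin (d i₀)) (Fin (d i₀)) F :=
    (Pi.evalAlgHom F (fun i => Matrix (Fin (d i)) (Fin (d i)) F) i₀).comp π
  have hπ₀a : ∀ a, π₀ a = π a i₀ := fun a => rfl
  have hπ₀ : Function.Surjective π₀ := by
    intro M
    obtain ⟨a, ha⟩ := hπ (Pi.single i₀ M)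
    exact ⟨a, by rw [hπ₀a, ha, Pi.single_eq_same]⟩
  have hker₀ : ∀ a, π₀ a = 0 ↔ a ∈ Ring.jacobson A := by
    intro a
    rw [← hker, hπ₀a]
    constructor
    · intro h
      funext i
      obtain rfl := hone i₀ i
      exact h
    · intro h
      rw [h, Pi.zero_apply]
  exact ⟨d i₀, hd i₀, π₀, hπ₀, hker₀⟩

end Cfsg.Agent.Lib.Helper54.Kuls
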