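import Cfsg.Prelude.Def_OddOrderLocal

set_option autoImplicit false
set_option linter.unusedVariables false

namespace Cfsg.Agent.Lib.Helper54.BGT

universe u

/-- the text of S1350 -/
abbrev T1350 (G : Type u) [Group G] [Finite G] : Prop :=
  ∀ (hG : Cfsg.IsMinSimpleOddOrder G)
    (M : Subgroup G) (hM : IsCoatom M),
    Cfsg.IsPiHallOf (Cfsg.sigma M) (Cfsg.sigmaCore M) M ∧ Cfsg.IsPiHall (Cfsg.sigma M) (Cfsg.sigmaCore M) ∧
      ∀ N : Subgroup G, M ≤ Subgroup.normalizer (N : Set G) → Cfsg.IsPiHallOf (Cfsg.sigma M) N M →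
        N = Cfsg.sigmaCore M

/-- the text of S1351 -/
abbrev T1351 (G : Type u) [Group G] [Finite G] : Prop :=
  ∀ (hG : Cfsg.IsMinSimpleOddOrder G)
    (M : Subgroup G) (hM : IsCoatom M),
    (∃ K : Subgroup G, Cfsg.IsPiHallOf (Cfsg.kappa M) K M) ∧
      ∀ K : Subgroup G, Cfsg.IsPiHallOf (Cfsg.kappa M) K M → IsCyclic K

/-- the text of S1352 -/
abbrev T1352 (G : Type u) [Group G] [Finite G] : Prop :=
  ∀ (hG : Cfsg.IsMinSimpleOddOrder G)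
    (M : Subgroup G) (hM : IsCoatom M) (K : Subgroup G)
    (hKc : IsCyclic K) (hK : Cfsg.IsPiHallOf (Cfsg.kappa M) K M),
    (∃ U : Subgroup G, Cfsg.IsSigmaDecomposition M K U) ∧
      ∀ U : Subgroup G, Cfsg.IsSigmaDecomposition M K U → M ≤ Subgroup.normalizer ((U ⊔ Cfsg.sigmaCore M : Subgroup G) : Set G)

/-- the text of S1353 -/
abbrev T1353 (G : Type u) [Group G] [Finite G] : Prop :=
  ∀ (hG : Cfsg.IsMinSimpleOddOrder G)
    (M : Subgroup G) (hM : IsCoatom M) (K U : Subgroup G) (hKU : Cfsg.IsSigmaDecomposition M K U),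
    ∀ k ∈ K, k ≠ 1 → U ⊓ Subgroup.centralizer ({k} : Set G) = ⊥

/-- the text of S1354 -/
abbrev T1354 (G : Type u) [Group G] [Finite G] : Prop :=
  ∀ (hG : Cfsg.IsMinSimpleOddOrder G)
    (M : Subgroup G) (hM : IsCoatom M) (K : Subgroup G)
    (hKc : IsCyclic K) (hK : Cfsg.IsPiHallOf (Cfsg.kappa M) K M),
    Cfsg.sigmaCore M ⊓ Subgroup.centralizer (K : Set G) ≠ ⊥ ∧
      (K ≠ ⊥ → ∀ k ∈ K, k ≠ 1 →
        M ⊓ Subgroup.centralizer ({k} : Set G) = K ⊔ (Cfsg.sigmaCore M ⊓ Subgroup.centralizer (K : Set G)))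

/-- the text of S1355 -/
abbrev T1355 (G : Type u) [Group G] [Finite G] : Prop :=
  ∀ (hG : Cfsg.IsMinSimpleOddOrder G)
    (M : Subgroup G) (hM : IsCoatom M),
    Cfsg.fittingHallOf M ≠ ⊥ ∧ Cfsg.fittingHallOf M ≤ Cfsg.sigmaCore M ∧ Cfsg.sigmaCore M ≤ ⁅M, M⁆ ∧ ⁅M, M⁆ < M ∧
      Group.IsNilpotent ↥((commutator ↥M).map (QuotientGroup.mk' (Cfsg.fittingHall ↥M)))

/-- the text of S1356 -/
abbrev T1356 (G : Type u) [Group G] [Finite G] : Prop :=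
  ∀ (hG : Cfsg.IsMinSimpleOddOrder G)
    (M : Subgroup G) (hM : IsCoatom M),
    ⁅⁅M, M⁆, ⁅M, M⁆⁆ ≤ Cfsg.fittingOf M ∧
      Cfsg.fittingOf M = (M ⊓ Subgroup.centralizer (Cfsg.fittingHallOf M : Set G)) ⊔ Cfsg.fittingHallOf M ∧
      ((Cfsg.kappa M).Nonempty → Cfsg.fittingOf M ≤ ⁅M, M⁆)

/-- the text of S1357 -/
abbrev T1357 (G : Type u) [Group G] [Finite G] : Prop :=
  ∀ (hG : Cfsg.IsMinSimpleOddOrder G)
    (M : Subgroup G) (hM : IsCoatom M) (K U : Subgroup G) (hKU : Cfsg.IsSigmaDecomposition M K U) (hne : Cfsg.fittingHallOf M ≠ Cfsg.sigmaCore M),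
    U = ⊥ ∧ Cfsg.IsTISubset (Cfsg.fittingOf M : Set G) ∧ (Nat.card K).Prime

/-- the text of S1359 -/
abbrev T1359 (G : Type u) [Group G] [Finite G] : Prop :=
  ∀ (hG : Cfsg.IsMinSimpleOddOrder G)
    (M : Subgroup G) (hM : IsCoatom M) (K U : Subgroup G) (hKU : Cfsg.IsSigmaDecomposition M K U),
    IsMulCommutative (Subgroup.closure ((U : Set G) ∩ Cfsg.sigmaHat M))

/-- the text of S1360 -/
abbrev T1360 (G : Type u) [Group G] [Finite G] : Prop :=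
  ∀ (hG : Cfsg.IsMinSimpleOddOrder G)
    (M : Subgroup G) (hM : IsCoatom M) (K U : Subgroup G) (hKU : Cfsg.IsSigmaDecomposition M K U),
    ∃ U₀ : Subgroup G, U₀ ≤ U ∧ Monoid.exponent U₀ = Monoid.exponent U ∧ ∀ u ∈ U₀, u ∈ Cfsg.sigmaHat M → u = 1

/-- the text of S1363 -/
abbrev T1363 (G : Type u) [Group G] [Finite G] : Prop :=
  ∀ (hG : Cfsg.IsMinSimpleOddOrder G)
    (M : Subgroup G) (hM : IsCoatom M) (K U : Subgroup G) (hKU : Cfsg.IsSigmaDecomposition M K U) (hK1 : K ≠ ⊥),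
    IsMulCommutative U ∧ ¬ Subgroup.normalizer (U : Set G) ≤ M

/-- the text of S1364 -/
abbrev T1364 (G : Type u) [Group G] [Finite G] : Prop :=
  ∀ (hG : Cfsg.IsMinSimpleOddOrder G)
    (M : Subgroup G) (hM : IsCoatom M) (K U : Subgroup G) (hKU : Cfsg.IsSigmaDecomposition M K U) (hK1 : K ≠ ⊥),
    IsCyclic ↥(Cfsg.sigmaCore M ⊓ Subgroup.centralizer (K : Set G)) ∧ (Cfsg.sigmaCore M ⊓ Subgroup.centralizer (K : Set G)) ≠ ⊥ ∧ (Cfsg.sigmaCore M ⊓ Subgroup.centralizer (K : Set G)) ≤ Cfsg.fittingHallOf M ∧ ¬ IsCyclic (Cfsg.fittingHallOf M)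

/-- the text of S1365 -/
abbrev T1365 (G : Type u) [Group G] [Finite G] : Prop :=
  ∀ (hG : Cfsg.IsMinSimpleOddOrder G)
    (M : Subgroup G) (hM : IsCoatom M) (K U : Subgroup G) (hKU : Cfsg.IsSigmaDecomposition M K U) (hK1 : K ≠ ⊥),
    ⁅M, M⁆ = U ⊔ Cfsg.sigmaCore M ∧ (Cfsg.sigmaCore M ⊓ Subgroup.centralizer (K : Set G)) ≤ ⁅⁅M, M⁆, ⁅M, M⁆⁆

/-- the text of S1366 -/
abbrev T1366 (G : Type u) [Group G] [Finite G] : Prop :=
  ∀ (hG : Cfsg.IsMinSimpleOddOrder G)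
    (M : Subgroup G) (hM : IsCoatom M) (K U : Subgroup G) (hKU : Cfsg.IsSigmaDecomposition M K U) (hK1 : K ≠ ⊥),
    ∃! Mstar : Subgroup G, IsCoatom Mstar ∧ K = Cfsg.sigmaCore Mstar ⊓ Subgroup.centralizer ((Cfsg.sigmaCore M ⊓ Subgroup.centralizer (K : Set G)) : Set G) ∧
        Cfsg.IsPiHallOf (Cfsg.kappa Mstar) (Cfsg.sigmaCore M ⊓ Subgroup.centralizer (K : Set G)) Mstar

/-- the text of S1367 -/
abbrev T1367 (G : Type u) [Group G] [Finite G] : Prop :=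
  ∀ (hG : Cfsg.IsMinSimpleOddOrder G)
    (M : Subgroup G) (hM : IsCoatom M) (K U : Subgroup G) (hKU : Cfsg.IsSigmaDecomposition M K U) (hK1 : K ≠ ⊥) (Mstar : Subgroup G) (hMstar : IsCoatom Mstar)
    (hKst : K = Cfsg.sigmaCore Mstar ⊓ Subgroup.centralizer ((Cfsg.sigmaCore M ⊓ Subgroup.centralizer (K : Set G)) : Set G))
    (hKstH : Cfsg.IsPiHallOf (Cfsg.kappa Mstar) (Cfsg.sigmaCore M ⊓ Subgroup.centralizer (K : Set G)) Mstar),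
    (∀ X : Subgroup G, X ≤ (Cfsg.sigmaCore M ⊓ Subgroup.centralizer (K : Set G)) → (Nat.card X).Prime →
        Subgroup.centralizer (X : Set G) ≤ M ∧ ∀ L : Subgroup G, IsCoatom L → Subgroup.centralizer (X : Set G) ≤ L → L = M) ∧
      (∀ Y : Subgroup G, Y ≤ K → (Nat.card Y).Prime →
        Subgroup.centralizer (Y : Set G) ≤ Mstar ∧ ∀ L : Subgroup G, IsCoatom L → Subgroup.centralizer (Y : Set G) ≤ L → L = Mstar)

/-- the text of S1368 -/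
abbrev T1368 (G : Type u) [Group G] [Finite G] : Prop :=
  ∀ (hG : Cfsg.IsMinSimpleOddOrder G)
    (M : Subgroup G) (hM : IsCoatom M) (K U : Subgroup G) (hKU : Cfsg.IsSigmaDecomposition M K U) (hK1 : K ≠ ⊥) (Mstar : Subgroup G) (hMstar : IsCoatom Mstar)
    (hKst : K = Cfsg.sigmaCore Mstar ⊓ Subgroup.centralizer ((Cfsg.sigmaCore M ⊓ Subgroup.centralizer (K : Set G)) : Set G))
    (hKstH : Cfsg.IsPiHallOf (Cfsg.kappa Mstar) (Cfsg.sigmaCore M ⊓ Subgroup.centralizer (K : Set G)) Mstar),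
    M ⊓ Mstar = K ⊔ (Cfsg.sigmaCore M ⊓ Subgroup.centralizer (K : Set G)) ∧ IsCyclic ↥(K ⊔ (Cfsg.sigmaCore M ⊓ Subgroup.centralizer (K : Set G)))

/-- the text of S1369 -/
abbrev T1369 (G : Type u) [Group G] [Finite G] : Prop :=
  ∀ (hG : Cfsg.IsMinSimpleOddOrder G)
    (M : Subgroup G) (hM : IsCoatom M) (K U : Subgroup G) (hKU : Cfsg.IsSigmaDecomposition M K U) (hK1 : K ≠ ⊥) (Mstar : Subgroup G) (hMstar : IsCoatom Mstar)
    (hKst : K = Cfsg.sigmaCore Mstar ⊓ Subgroup.centralizer ((Cfsg.sigmaCore M ⊓ Subgroup.centralizer (K : Set G)) : Set G))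
    (hKstH : Cfsg.IsPiHallOf (Cfsg.kappa Mstar) (Cfsg.sigmaCore M ⊓ Subgroup.centralizer (K : Set G)) Mstar),
    (U ≠ ⊥ ∨ ∀ Ustar : Subgroup G, Cfsg.IsSigmaDecomposition Mstar (Cfsg.sigmaCore M ⊓ Subgroup.centralizer (K : Set G)) Ustar → Ustar ≠ ⊥) ∧
      ∀ H : Subgroup G, IsCoatom H → (Cfsg.kappa H).Nonempty →
        ∃ g : G, H = M.map (MulAut.conj g).toMonoidHom ∨ H = Mstar.map (MulAut.conj g).toMonoidHom

/-- the text of S1370 -/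
abbrev T1370 (G : Type u) [Group G] [Finite G] : Prop :=
  ∀ (hG : Cfsg.IsMinSimpleOddOrder G)
    (M : Subgroup G) (hM : IsCoatom M) (K U : Subgroup G) (hKU : Cfsg.IsSigmaDecomposition M K U) (hK1 : K ≠ ⊥),
    Cfsg.IsTISubset ((↑(K ⊔ (Cfsg.sigmaCore M ⊓ Subgroup.centralizer (K : Set G))) : Set G) \ ((K : Set G) ∪ ↑(Cfsg.sigmaCore M ⊓ Subgroup.centralizer (K : Set G)))) ∧ Subgroup.normalizer ((↑(K ⊔ (Cfsg.sigmaCore M ⊓ Subgroup.centralizer (K : Set G))) : Set G) \ ((K : Set G) ∪ ↑(Cfsg.sigmaCore M ⊓ Subgroup.centralizer (K : Set G)))) = K ⊔ (Cfsg.sigmaCore M ⊓ Subgroup.centralizer (K : Set G))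

/-- the text of S1372 -/
abbrev T1372 (G : Type u) [Group G] [Finite G] : Prop :=
  ∀ (hG : Cfsg.IsMinSimpleOddOrder G)
    (M : Subgroup G) (hM : IsCoatom M) (K U : Subgroup G) (hKU : Cfsg.IsSigmaDecomposition M K U) (hK1 : K ≠ ⊥) (hU1 : U ≠ ⊥),
    (Nat.card K).Prime ∧ Cfsg.IsTISubset (Cfsg.fittingOf M : Set G) ∧ Cfsg.sigmaCore M ≤ Cfsg.fittingOf M

/-- the text of S1373 -/
abbrev T1373 (G : Type u) [Group G] [Finite G] : Prop :=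
  ∀ (hG : Cfsg.IsMinSimpleOddOrder G)
    (M : Subgroup G) (hM : IsCoatom M) (K U : Subgroup G) (hKU : Cfsg.IsSigmaDecomposition M K U) (hK1 : K ≠ ⊥) (hU : U = ⊥),
    (Nat.card ↥(Cfsg.sigmaCore M ⊓ Subgroup.centralizer (K : Set G))).Prime

/-- the text of S1374 -/
abbrev T1374 (G : Type u) [Group G] [Finite G] : Prop :=
  ∀ (hG : Cfsg.IsMinSimpleOddOrder G)
    (M : Subgroup G) (hM : IsCoatom M) (x : G) (hx : x ∈ Cfsg.sigmaCore M) (hx1 : x ≠ 1),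
    (Nat.card ↥(M ⊓ Subgroup.centralizer ({x} : Set G))).Coprime ((M ⊓ Subgroup.centralizer ({x} : Set G)).relIndex (Subgroup.centralizer ({x} : Set G))) ∧
      ∃ R : Subgroup G, Subgroup.centralizer ({x} : Set G) ≤ Subgroup.normalizer (R : Set G) ∧ Cfsg.IsComplIn (M ⊓ Subgroup.centralizer ({x} : Set G)) R (Subgroup.centralizer ({x} : Set G)) ∧
        ∀ g : G, x ∈ M.map (MulAut.conj g).toMonoidHom → ∃! r : G, r ∈ R ∧ M.map (MulAut.conj r).toMonoidHom = M.map (MulAut.conj g).toMonoidHom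

/-- the text of S1375 -/
abbrev T1375 (G : Type u) [Group G] [Finite G] : Prop :=
  ∀ (hG : Cfsg.IsMinSimpleOddOrder G)
    (M : Subgroup G) (hM : IsCoatom M) (x : G) (hx : x ∈ Cfsg.sigmaCore M) (hx1 : x ≠ 1) (hxM : ¬ Subgroup.centralizer ({x} : Set G) ≤ M),
    ∃ N : Subgroup G, (IsCoatom N ∧ Subgroup.centralizer ({x} : Set G) ≤ N) ∧ (∀ L : Subgroup G, IsCoatom L → Subgroup.centralizer ({x} : Set G) ≤ L → L = N) ∧
        Cfsg.sigmaCore N = Cfsg.fittingHallOf N ∧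
        Subgroup.centralizer ({x} : Set G) ≤ Subgroup.normalizer ((Cfsg.sigmaCore N ⊓ Subgroup.centralizer ({x} : Set G) : Subgroup G) : Set G) ∧
        Cfsg.IsComplIn (M ⊓ Subgroup.centralizer ({x} : Set G)) (Cfsg.sigmaCore N ⊓ Subgroup.centralizer ({x} : Set G)) (Subgroup.centralizer ({x} : Set G)) ∧
        Cfsg.IsComplIn (M ⊓ N) (Cfsg.sigmaCore N) N ∧
        ∀ K' U' : Subgroup G, Cfsg.IsSigmaDecomposition N K' U' → U' ≠ ⊥ ∧ x ∈ Cfsg.sigmaA N U' ∧ x ∉ Cfsg.sigmaCore N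

/-- the text of S1376 -/
abbrev T1376 (G : Type u) [Group G] [Finite G] : Prop :=
  ∀ (hG : Cfsg.IsMinSimpleOddOrder G)
    (M : Subgroup G) (hM : IsCoatom M) (x : G) (hx : x ∈ Cfsg.sigmaCore M) (hx1 : x ≠ 1) (hxM : ¬ Subgroup.centralizer ({x} : Set G) ≤ M)
    (N : Subgroup G) (hN : IsCoatom N) (hxN : Subgroup.centralizer ({x} : Set G) ≤ N) (hkN : (Cfsg.kappa N).Nonempty),
    Cfsg.kappa M = ∅ ∧ (∃ E : Subgroup ↥M, Cfsg.IsFrobeniusComplement E ∧ IsCyclic E) ∧ ¬ Cfsg.IsTISubset (Cfsg.fittingHallOf M : Set G)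

/-- the text of S1382 -/
abbrev T1382 (G : Type u) [Group G] [Finite G] : Prop :=
  ∀ (hG : Cfsg.IsMinSimpleOddOrder G)
    (M : Subgroup G) (hM : IsCoatom M) (K U : Subgroup G) (hKU : Cfsg.IsSigmaDecomposition M K U),
    (Cfsg.IsOfTypeIII M ∨ Cfsg.IsOfTypeIV M) ↔ (K ≠ ⊥ ∧ U = ⊥ ∧ Cfsg.fittingHallOf M ≠ Cfsg.sigmaCore M)

/-- the text of S1383 -/
abbrev T1383 (G : Type u) [Group G] [Finite G] : Prop :=
  ∀ (hG : Cfsg.IsMinSimpleOddOrder G)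
    (M : Subgroup G) (hM : IsCoatom M) (K U : Subgroup G) (hKU : Cfsg.IsSigmaDecomposition M K U),
    Cfsg.IsOfTypeV M ↔ (K ≠ ⊥ ∧ U = ⊥ ∧ Cfsg.fittingHallOf M = Cfsg.sigmaCore M)

/-- the text of S1417 -/
abbrev T1417 (G : Type u) [Group G] [Finite G] : Prop :=
  ∀ (hG : Cfsg.IsMinSimpleOddOrder G)
    (M : Subgroup G) (hM : IsCoatom M) (p : ℕ) [Fact p.Prime] (hp : p ∈ Cfsg.tau2 M) (A : Subgroup G) (hA : (A ≤ M ∧ Cfsg.IsElementaryAbelian p A ∧ Nat.card A = p ^ 2)),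
    Group.IsNilpotent (Cfsg.sigmaCore M) ∧
      (∀ P : Sylow p M, IsMulCommutative (P : Subgroup M) ∧
        (A ≤ (P : Subgroup M).map M.subtype →
          (∀ x ∈ (P : Subgroup M).map M.subtype, x ^ p = 1 ↔ x ∈ A) ∧
          ¬ Subgroup.normalizer ((((P : Subgroup M).map M.subtype : Subgroup G)) : Set G) ≤ M)) ∧
      M ≤ Subgroup.normalizer ((Cfsg.sigmaCore M ⊔ A : Subgroup G) : Set G) ∧
      Cfsg.sigmaCore M ⊓ Subgroup.centralizer (A : Set G) = ⊥ ∧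
      (∀ Mstar : Subgroup G, IsCoatom Mstar → Mstar ≠ M → A ≤ Mstar → Cfsg.sigmaCore M ⊓ Mstar = ⊥) ∧
      ∃ A₁ : Subgroup G, A₁ ≤ A ∧ Nat.card A₁ = p ∧ Cfsg.sigmaCore M ⊓ Subgroup.centralizer (A₁ : Set G) = ⊥

/-- the text of S1418 -/
abbrev T1418 (G : Type u) [Group G] [Finite G] : Prop :=
  ∀ (hG : Cfsg.IsMinSimpleOddOrder G)
    (M : Subgroup G) (hM : IsCoatom M) (E : Subgroup G) (hE : Cfsg.IsComplIn E (Cfsg.sigmaCore M) M) (p : ℕ) [Fact p.Prime] (hp : p ∈ Cfsg.tau2 M) (A : Subgroup G) (hA : (A ≤ E ∧ Cfsg.IsElementaryAbelian p A ∧ Nat.card A = p ^ 2)),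
    (E ≤ Subgroup.normalizer (A : Set G) ∧ ∀ X : Subgroup G, X ≤ E → Nat.card X = p → X ≤ A) ∧
      (Subgroup.centralizer (A : Set G) ≤ M ⊓ Subgroup.normalizer (A : Set G) ∧ M ⊓ Subgroup.normalizer (A : Set G) = E ∧
        ¬ Subgroup.normalizer (A : Set G) ≤ M) ∧
      ∀ X : Subgroup G, X ≤ A → Nat.card X = p → Cfsg.sigmaCore M ⊓ Subgroup.centralizer (X : Set G) ≠ ⊥ → (Subgroup.centralizer (X : Set G) ≤ M ∧ ∀ L : Subgroup G, IsCoatom L → Subgroup.centralizer (X : Set G) ≤ L → L = M)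

/-- the text of S1420 -/
abbrev T1420 (G : Type u) [Group G] [Finite G] : Prop :=
  ∀ (hG : Cfsg.IsMinSimpleOddOrder G)
    (M : Subgroup G) (hM : IsCoatom M) (E : Subgroup G) (hE : Cfsg.IsComplIn E (Cfsg.sigmaCore M) M),
    (∀ N : Subgroup G, N ≤ M → Group.IsNilpotent N → (∀ p : ℕ, p.Prime → p ∣ Nat.card N → p ∉ Cfsg.sigma M) → IsMulCommutative N) ∧
      IsMulCommutative ↥⁅E, E⁆ ∧
      (∀ (p : ℕ) (P : Subgroup G), p ∈ Cfsg.sigma M → IsPGroup p P → P ≤ M → ¬ IsCyclic P → Subgroup.normalizer (P : Set G) ≤ M) ∧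
      ∀ x ∈ M, x ≠ 1 → (∀ p : ℕ, p.Prime → p ∣ orderOf x → p ∈ Cfsg.tau2 M) → x ∈ Cfsg.sigmaHat M →
        Subgroup.centralizer ({x} : Set G) ≤ M ∧ ∀ L : Subgroup G, IsCoatom L → Subgroup.centralizer ({x} : Set G) ≤ L → L = M

/-- the text of S1438 -/
abbrev T1438 (G : Type u) [Group G] [Finite G] : Prop :=
  ∀ (hG : Cfsg.IsMinSimpleOddOrder G)
    (M : Subgroup G) (hM : IsCoatom M) (H : Subgroup G) (hH : H ≤ Cfsg.sigmaCore M) (hH1 : H ≠ ⊥)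
    (hHall : (Nat.card H).Coprime (H.relIndex (Cfsg.sigmaCore M))),
    (∃ X : Subgroup G, IsCyclic X ∧ (∀ p : ℕ, p.Prime → p ∣ Nat.card X → p ∈ Cfsg.tau2 M) ∧
        M ⊓ Subgroup.centralizer (H : Set G) = (Cfsg.sigmaCore M ⊓ Subgroup.centralizer (H : Set G)) ⊔ X) ∧
      ∀ x ∈ H, ∀ g : G, g * x * g⁻¹ ∈ H → ∃ n ∈ M ⊓ Subgroup.normalizer (H : Set G), n * x * n⁻¹ = g * x * g⁻¹

/-- the text of S1439 -/
abbrev T1439 (G : Type u) [Group G] [Finite G] : Prop :=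
  ∀ (hG : Cfsg.IsMinSimpleOddOrder G)
    (M : Subgroup G) (hM : IsCoatom M),
    IsCyclic ↥(Cfsg.piCoreOf {q | q.Prime ∧ q ∉ Cfsg.sigma M} (Cfsg.fittingOf M)) ∧
      (∀ p : ℕ, p.Prime → p ∣ Nat.card ↥(Cfsg.piCoreOf {q | q.Prime ∧ q ∉ Cfsg.sigma M} (Cfsg.fittingOf M)) → p ∈ Cfsg.tau2 M) ∧
      Cfsg.fittingOf M = Cfsg.fittingOf (Cfsg.sigmaCore M) ⊔ Cfsg.piCoreOf {q | q.Prime ∧ q ∉ Cfsg.sigma M} (Cfsg.fittingOf M)

/-- the text of S1440 -/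
abbrev T1440 (G : Type u) [Group G] [Finite G] : Prop :=
  ∀ (hG : Cfsg.IsMinSimpleOddOrder G)
    (M : Subgroup G) (hM : IsCoatom M) (K U : Subgroup G) (hKU : Cfsg.IsSigmaDecomposition M K U) (g : G) (hg : g ∉ M) (hX : Cfsg.fittingOf M ⊓ (Cfsg.fittingOf M).map (MulAut.conj g).toMonoidHom ≠ ⊥),
    (Cfsg.fittingOf M ⊓ (Cfsg.fittingOf M).map (MulAut.conj g).toMonoidHom ≤ Cfsg.fittingHallOf M ∧ IsCyclic ↥(Cfsg.fittingOf M ⊓ (Cfsg.fittingOf M).map (MulAut.conj g).toMonoidHom)) ∧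
      (⁅M, M⁆ = Cfsg.fittingOf M ∧ Cfsg.fittingOf M = Cfsg.sigmaCore M ⊔ Cfsg.piCoreOf {q | q.Prime ∧ q ∉ Cfsg.sigma M} (Cfsg.fittingOf M)) ∧
      ((K = ⊥ ∧ IsMulCommutative (Cfsg.fittingHallOf M) ∧ Cfsg.RankLE 2 (Cfsg.fittingHallOf M) ∧ ¬ Cfsg.RankLE 1 (Cfsg.fittingHallOf M)) ∨
       (∃ p : ℕ, p.Prime ∧ Nat.card ↥(Cfsg.fittingOf M ⊓ (Cfsg.fittingOf M).map (MulAut.conj g).toMonoidHom) = p ∧ p ∈ Cfsg.sigma M ∧ p ∉ Cfsg.beta M ∧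
          ¬ IsMulCommutative (Cfsg.pCore p ↥(Cfsg.fittingHallOf M)) ∧ IsCyclic (Cfsg.pPrimeCore p ↥(Cfsg.fittingHallOf M)) ∧
          ∀ q : ℕ, q.Prime → q ∣ Nat.card (Cfsg.fittingHallOf M) → Monoid.exponent (↥M ⧸ Cfsg.fittingHall ↥M) ∣ q - 1) ∨
       (∃ p : ℕ, p.Prime ∧ Nat.card ↥(Cfsg.fittingOf M ⊓ (Cfsg.fittingOf M).map (MulAut.conj g).toMonoidHom) = p ∧ p ∈ Cfsg.sigma M ∧ p ∉ Cfsg.beta M ∧
          IsCyclic (Cfsg.pPrimeCore p ↥(Cfsg.fittingHallOf M)) ∧ Nat.card (Cfsg.pCore p ↥(Cfsg.fittingHallOf M)) = p ^ 3 ∧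
          ¬ IsMulCommutative (Cfsg.pCore p ↥(Cfsg.fittingHallOf M)) ∧ K ≠ ⊥ ∧ U = ⊥ ∧ (Cfsg.fittingHallOf M).relIndex M ∣ p + 1))

end Cfsg.Agent.Lib.Helper54.BGT
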