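import Cfsg.Agent.Lib.Helper54.FHSpan

set_option autoImplicit false

/-! RUNG PARSEVAL of the ladder towards S1142 (designed by helper61): the algebra generated by the
two adjacency matrices is spanned by the `2m` alternating products, and the expansion of the trace
form in this orthogonal family. -/

namespace Cfsg.Agent.Lib.Helper54.FH

open Cfsg.Agent.Lib.Helper61.FH Matrix Polynomial

variable {Ω : Type*} [Fintype Ω] [DecidableEq Ω] {m a b : ℕ} {A₁ A₂ : Matrix Ω Ω ℝ}

theorem Data.mul₁_top (d : Data m a b A₁ A₂) {M : Matrix Ω Ω ℝ} (hM : M ∈ Fil A₁ A₂ m) :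
    A₁ * M ∈ Fil A₁ A₂ m := by
  have hm := d.hm
  unfold Fil at hM
  induction hM using Submodule.span_induction with
  | mem x hx =>
    obtain ⟨i, hi, rfl | rfl⟩ := hx
    · cases i with
      | zero => exact L_mem_Fil A₁ A₂ (i := 1) (by omega)
      | succ i => exact mul_L_mem d.sq₁ hi
    · rcases Nat.lt_or_ge i m with hlt | hge
      · exact L_mem_Fil A₁ A₂ (i := i + 1) (by omega)
      · have : i = m := le_antisymm hi hge
        subst this
        rw [← d.braid]
        obtain ⟨i', rfl⟩ : ∃ i', i = i' + 1 := ⟨i - 1, by omega⟩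
        exact mul_L_mem d.sq₁ le_rfl
  | zero => rw [mul_zero]; exact Submodule.zero_mem _
  | add x y _ _ hx hy => rw [mul_add]; exact Submodule.add_mem _ hx hy
  | smul c x _ hx => rw [mul_smul_comm]; exact Submodule.smul_mem _ _ hx

theorem Data.mul₂_top (d : Data m a b A₁ A₂) {M : Matrix Ω Ω ℝ} (hM : M ∈ Fil A₁ A₂ m) :
    A₂ * M ∈ Fil A₁ A₂ m := by
  rw [← Fil_swap] at hM ⊢
  exact Data.mul₁_top (Data.swap d) hM

theorem Data.adjoin_mul_top (d : Data m a b A₁ A₂) {M : Matrix Ω Ω ℝ}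
    (hM : M ∈ Algebra.adjoin ℝ ({A₁, A₂} : Set (Matrix Ω Ω ℝ))) :
    ∀ N ∈ Fil A₁ A₂ m, M * N ∈ Fil A₁ A₂ m := by
  induction hM using Algebra.adjoin_induction with
  | mem x hx =>
    intro N hN
    rcases hx with rfl | hx
    · exact Data.mul₁_top d hN
    · rw [Set.mem_singleton_iff] at hx
      subst hx
      exact Data.mul₂_top d hN
  | algebraMap r =>
    intro N hN
    rw [Algebra.algebraMap_eq_smul_one, smul_mul_assoc, one_mul]
    exact Submodule.smul_mem _ _ hN
  | add x y _ _ hx hy =>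
    intro N hN
    rw [add_mul]
    exact Submodule.add_mem _ (hx N hN) (hy N hN)
  | mul x y _ _ hx hy =>
    intro N hN
    rw [mul_assoc]
    exact hx _ (hy N hN)

theorem Data.adjoin_le_top (d : Data m a b A₁ A₂) {M : Matrix Ω Ω ℝ}
    (hM : M ∈ Algebra.adjoin ℝ ({A₁, A₂} : Set (Matrix Ω Ω ℝ))) : M ∈ Fil A₁ A₂ m := by
  have := Data.adjoin_mul_top d hM 1 (L_mem_Fil A₁ A₂ (i := 0) (Nat.zero_le _))
  rwa [mul_one] at this

/-- the polarised expansion for `L i`, `i < m` -/
theorem Data.expand_L (d : Data m a b A₁ A₂) {i : ℕ} (hi : i < m) (M' : Matrix Ω Ω ℝ) :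
    (Fintype.card Ω : ℝ) * trace (alt A₁ A₂ i * M'ᵀ) =
      ∑ k ∈ Finset.range m, trace (alt A₁ A₂ i * (alt A₁ A₂ k)ᵀ) * trace (M' * (alt A₁ A₂ k)ᵀ)
          / alt (a : ℝ) b k +
      ∑ k ∈ Finset.range m, trace (alt A₁ A₂ i * (alt A₂ A₁ (k + 1))ᵀ) *
          trace (M' * (alt A₂ A₁ (k + 1))ᵀ) / alt (b : ℝ) a (k + 1) := by
  have ha : (0 : ℝ) < a := by have := d.ha; positivity
  have hb : (0 : ℝ) < b := by have := d.hb; positivity
  rw [Finset.sum_eq_single i, Finset.sum_eq_zero, add_zero, d.normL i hi.le,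
    trace_mul_transpose_comm]
  · have := (alt_pos ha hb i).ne'
    field_simp
  · intro k hk
    rw [Finset.mem_range] at hk
    rw [d.orthLR i hi (k + 1) (by omega) (by omega), zero_mul, zero_div]
  · intro k hk hne
    rw [Finset.mem_range] at hk
    rw [d.orthLL i hi.le k hk.le (Ne.symm hne), zero_mul, zero_div]
  · intro h
    exact absurd (Finset.mem_range.mpr hi) h

/-- the polarised expansion for `R (i + 1)`, `i < m` -/
theorem Data.expand_R (d : Data m a b A₁ A₂) {i : ℕ} (hi : i < m) (M' : Matrix Ω Ω ℝ) :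
    (Fintype.card Ω : ℝ) * trace (alt A₂ A₁ (i + 1) * M'ᵀ) =
      ∑ k ∈ Finset.range m, trace (alt A₂ A₁ (i + 1) * (alt A₁ A₂ k)ᵀ) *
          trace (M' * (alt A₁ A₂ k)ᵀ) / alt (a : ℝ) b k +
      ∑ k ∈ Finset.range m, trace (alt A₂ A₁ (i + 1) * (alt A₂ A₁ (k + 1))ᵀ) *
          trace (M' * (alt A₂ A₁ (k + 1))ᵀ) / alt (b : ℝ) a (k + 1) := by
  have ha : (0 : ℝ) < a := by have := d.ha; positivity
  have hb : (0 : ℝ) < b := by have := d.hb; positivity
  rw [Finset.sum_eq_zero, Finset.sum_eq_single i, zero_add, d.normR (i + 1) (by omega),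
    trace_mul_transpose_comm]
  · have := (alt_pos hb ha (i + 1)).ne'
    field_simp
  · intro k hk hne
    rw [Finset.mem_range] at hk
    rw [d.orthRR (i + 1) (by omega) (k + 1) (by omega) (by omega), zero_mul, zero_div]
  · intro h
    exact absurd (Finset.mem_range.mpr hi) h
  · intro k hk
    rw [Finset.mem_range] at hk
    rw [trace_mul_transpose_comm, d.orthLR k hk (i + 1) (by omega) (by omega), zero_mul, zero_div]

/-- the polarised form of the expansion -/
theorem Data.parseval_polar (d : Data m a b A₁ A₂) {M : Matrix Ω Ω ℝ} (hM : M ∈ Fil A₁ A₂ m)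
    (M' : Matrix Ω Ω ℝ) :
    (Fintype.card Ω : ℝ) * trace (M * M'ᵀ) =
      ∑ k ∈ Finset.range m, trace (M * (alt A₁ A₂ k)ᵀ) * trace (M' * (alt A₁ A₂ k)ᵀ)
          / alt (a : ℝ) b k +
      ∑ k ∈ Finset.range m, trace (M * (alt A₂ A₁ (k + 1))ᵀ) *
          trace (M' * (alt A₂ A₁ (k + 1))ᵀ) / alt (b : ℝ) a (k + 1) := by
  have hm := d.hm
  unfold Fil at hM
  induction hM using Submodule.span_induction with
  | mem x hx =>
    obtain ⟨i, hi, rfl | rfl⟩ := hx
    · rcases Nat.lt_or_ge i m with hlt | hge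
      · exact Data.expand_L d hlt M'
      · have : i = m := le_antisymm hi hge
        subst this
        rw [d.braid]
        obtain ⟨i', rfl⟩ : ∃ i', i = i' + 1 := ⟨i - 1, by omega⟩
        exact Data.expand_R d (by omega) M'
    · cases i with
      | zero => exact Data.expand_L d (i := 0) (by omega) M'
      | succ i => exact Data.expand_R d (by omega) M'
  | zero => simp
  | add x y _ _ hx hy =>
    simp only [add_mul, trace_add, mul_add, add_div, Finset.sum_add_distrib, hx, hy]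
    ring
  | smul c x _ hx =>
    simp only [smul_mul_assoc, trace_smul, smul_eq_mul, mul_assoc, mul_div_assoc,
      ← Finset.mul_sum] at hx ⊢
    rw [mul_left_comm, hx]
    ring

theorem parseval (d : Data m a b A₁ A₂) (M : Matrix Ω Ω ℝ)
    (hM : M ∈ Algebra.adjoin ℝ ({A₁, A₂} : Set (Matrix Ω Ω ℝ))) :
    (Fintype.card Ω : ℝ) * trace (M * Mᵀ) =
      ∑ k ∈ Finset.range m, trace (M * (alt A₁ A₂ k)ᵀ) ^ 2 / alt (a : ℝ) b k +
      ∑ k ∈ Finset.range m, trace (M * (alt A₂ A₁ (k + 1))ᵀ) ^ 2 / alt (b : ℝ) a (k + 1) := by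
  rw [Data.parseval_polar d (Data.adjoin_le_top d hM) M]
  simp only [sq]

end Cfsg.Agent.Lib.Helper54.FH
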