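import Cfsg.Agent.Lib.Helper61.FHAlg2

set_option autoImplicit false

/-! RUNG SPAN of the ladder towards S1142 (designed by helper61): symmetry of the data, transposes
of alternating products, the filtration by length, and the fact that no nonzero polynomial of
degree at most `m / 2` kills the central element. -/

namespace Cfsg.Agent.Lib.Helper54.FH

open Cfsg.Agent.Lib.Helper61.FH Matrix Polynomial

section gen

theorem alt_pos {a b : ℝ} (ha : 0 < a) (hb : 0 < b) (k : ℕ) : 0 < alt a b k := by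
  induction k generalizing a b with
  | zero => simp
  | succ k ih => rw [alt_succ]; exact mul_pos ha (ih hb ha)

theorem pow_mul_semiconj {M : Type*} [Monoid M] (x y : M) (k : ℕ) :
    (x * y) ^ k * x = x * (y * x) ^ k := by
  induction k with
  | zero => simp
  | succ k ih => rw [pow_succ', mul_assoc, ih, pow_succ', ← mul_assoc, ← mul_assoc, ← mul_assoc]

end gen

variable {Ω : Type*} [Fintype Ω] [DecidableEq Ω] {m a b : ℕ} {A₁ A₂ : Matrix Ω Ω ℝ}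

omit [DecidableEq Ω] in
theorem trace_mul_transpose_comm (M N : Matrix Ω Ω ℝ) : trace (M * Nᵀ) = trace (N * Mᵀ) := by
  rw [← trace_transpose, transpose_mul, transpose_transpose]

theorem Data.swap (d : Data m a b A₁ A₂) : Data m b a A₂ A₁ where
  hm := d.hm
  ha := d.hb
  hb := d.ha
  ne := d.ne
  symm₁ := d.symm₂
  symm₂ := d.symm₁
  sq₁ := d.sq₂
  sq₂ := d.sq₁
  braid := d.braid.symm
  normL := d.normR
  normR := d.normL
  orthLL := d.orthRR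
  orthRR := d.orthLL
  orthLR := by
    intro k hk l hl h0
    rw [trace_mul_transpose_comm]
    rcases Nat.eq_zero_or_pos k with rfl | hk0
    · have : alt A₂ A₁ 0 = alt A₁ A₂ 0 := rfl
      rw [this]
      exact d.orthLL l hl 0 (Nat.zero_le _) (by omega)
    · rcases Nat.lt_or_ge l m with hlm | hlm
      · exact d.orthLR l hlm k hk.le hk0
      · have : l = m := le_antisymm hl hlm
        subst this
        rw [d.braid]
        exact d.orthRR l le_rfl k hk.le (by omega)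

theorem Data.card_pos (d : Data m a b A₁ A₂) : (0 : ℝ) < Fintype.card Ω := by
  haveI := d.ne
  exact_mod_cast Fintype.card_pos

theorem Data.eq_of_odd (d : Data m a b A₁ A₂) (h : m % 2 = 1) : a = b := by
  have h1 := d.normL m le_rfl
  have h2 := d.normR m le_rfl
  rw [d.braid, h2] at h1
  have h3 : alt (b : ℝ) a m = alt (a : ℝ) b m := mul_left_cancel₀ (Data.card_pos d).ne' h1
  obtain ⟨K, rfl⟩ : ∃ K, m = 2 * K + 1 := ⟨m / 2, by omega⟩
  rw [alt_odd, alt_odd, mul_comm (b : ℝ) a] at h3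
  have ha : (0 : ℝ) < a := by have := d.ha; positivity
  have hb : (0 : ℝ) < b := by have := d.hb; positivity
  have h4 : ((a : ℝ) * b) ^ K ≠ 0 := by positivity
  have h5 := mul_right_cancel₀ h4 h3
  exact_mod_cast h5.symm

theorem alt_transpose (h₁ : A₁ᵀ = A₁) (h₂ : A₂ᵀ = A₂) (k : ℕ) :
    (alt A₁ A₂ k)ᵀ = if k % 2 = 0 then alt A₂ A₁ k else alt A₁ A₂ k := by
  rcases Nat.even_or_odd' k with ⟨j, rfl | rfl⟩
  · rw [if_pos (by omega), alt_even, alt_even, transpose_pow, transpose_mul, h₁, h₂]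
  · rw [if_neg (by omega), alt_odd, transpose_mul, transpose_pow, transpose_mul, h₁, h₂,
      pow_mul_semiconj]

/-- the span of the alternating products of length at most `j` -/
def Fil (A₁ A₂ : Matrix Ω Ω ℝ) (j : ℕ) : Submodule ℝ (Matrix Ω Ω ℝ) :=
  Submodule.span ℝ {M | ∃ i, i ≤ j ∧ (M = alt A₁ A₂ i ∨ M = alt A₂ A₁ i)}

theorem Fil_swap (A₁ A₂ : Matrix Ω Ω ℝ) (j : ℕ) : Fil A₂ A₁ j = Fil A₁ A₂ j := by
  unfold Fil
  congr 1
  ext M
  simp only [Set.mem_ofPred_eq, or_comm]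

theorem L_mem_Fil (A₁ A₂ : Matrix Ω Ω ℝ) {i j : ℕ} (h : i ≤ j) : alt A₁ A₂ i ∈ Fil A₁ A₂ j :=
  Submodule.subset_span ⟨i, h, Or.inl rfl⟩

theorem R_mem_Fil (A₁ A₂ : Matrix Ω Ω ℝ) {i j : ℕ} (h : i ≤ j) : alt A₂ A₁ i ∈ Fil A₁ A₂ j :=
  Submodule.subset_span ⟨i, h, Or.inr rfl⟩

theorem Fil_mono (A₁ A₂ : Matrix Ω Ω ℝ) {i j : ℕ} (h : i ≤ j) : Fil A₁ A₂ i ≤ Fil A₁ A₂ j := by
  apply Submodule.span_mono
  rintro M ⟨k, hk, hM⟩
  exact ⟨k, hk.trans h, hM⟩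

section table
variable {α β : ℝ}

theorem mul_L_succ (h₁ : A₁ * A₁ = α • (1 : Matrix Ω Ω ℝ) + (α - 1) • A₁) (k : ℕ) :
    A₁ * alt A₁ A₂ (k + 1) = α • alt A₂ A₁ k + (α - 1) • alt A₁ A₂ (k + 1) := by
  rw [alt_succ, ← mul_assoc, h₁, add_mul, smul_mul_assoc, smul_mul_assoc, one_mul]

/-- left multiplication by `A₁` does not raise the length of `A₁A₂...` -/
theorem mul_L_mem (h₁ : A₁ * A₁ = α • (1 : Matrix Ω Ω ℝ) + (α - 1) • A₁) {k j : ℕ} (hk : k + 1 ≤ j) :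
    A₁ * alt A₁ A₂ (k + 1) ∈ Fil A₁ A₂ j := by
  rw [mul_L_succ h₁]
  exact Submodule.add_mem _ (Submodule.smul_mem _ _ (R_mem_Fil _ _ (by omega)))
    (Submodule.smul_mem _ _ (L_mem_Fil _ _ hk))

theorem mul₁_Fil (h₁ : A₁ * A₁ = α • (1 : Matrix Ω Ω ℝ) + (α - 1) • A₁) {j : ℕ}
    {M : Matrix Ω Ω ℝ} (hM : M ∈ Fil A₁ A₂ j) : A₁ * M ∈ Fil A₁ A₂ (j + 1) := by
  unfold Fil at hM
  induction hM using Submodule.span_induction with
  | mem x hx =>
    obtain ⟨i, hi, rfl | rfl⟩ := hx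
    · cases i with
      | zero => exact L_mem_Fil A₁ A₂ (i := 1) (by omega)
      | succ i => exact mul_L_mem h₁ (by omega)
    · exact L_mem_Fil A₁ A₂ (i := i + 1) (by omega)
  | zero => rw [mul_zero]; exact Submodule.zero_mem _
  | add x y _ _ hx hy => rw [mul_add]; exact Submodule.add_mem _ hx hy
  | smul c x _ hx => rw [mul_smul_comm]; exact Submodule.smul_mem _ _ hx

theorem mul₂_Fil (h₂ : A₂ * A₂ = β • (1 : Matrix Ω Ω ℝ) + (β - 1) • A₂) {j : ℕ}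
    {M : Matrix Ω Ω ℝ} (hM : M ∈ Fil A₁ A₂ j) : A₂ * M ∈ Fil A₁ A₂ (j + 1) := by
  rw [← Fil_swap] at hM ⊢
  exact mul₁_Fil h₂ hM

theorem cX_mul_Fil (h₁ : A₁ * A₁ = α • (1 : Matrix Ω Ω ℝ) + (α - 1) • A₁)
    (h₂ : A₂ * A₂ = β • (1 : Matrix Ω Ω ℝ) + (β - 1) • A₂) {j : ℕ}
    {M : Matrix Ω Ω ℝ} (hM : M ∈ Fil A₁ A₂ j) : cX α β A₁ A₂ * M ∈ Fil A₁ A₂ (j + 2) := by
  unfold cX
  simp only [add_mul, sub_mul, smul_mul_assoc, one_mul, mul_assoc]
  have e1 := mul₁_Fil h₁ hM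
  have e2 := mul₂_Fil h₂ hM
  have e12 := mul₁_Fil h₁ e2
  have e21 := mul₂_Fil h₂ e1
  have m1 := Fil_mono A₁ A₂ (show j + 1 ≤ j + 2 by omega)
  have m0 := Fil_mono A₁ A₂ (show j ≤ j + 2 by omega)
  exact Submodule.add_mem _ (Submodule.sub_mem _ (Submodule.sub_mem _ (Submodule.add_mem _ e12 e21)
    (Submodule.smul_mem _ _ (m1 e1))) (Submodule.smul_mem _ _ (m1 e2)))
    (Submodule.smul_mem _ _ (m0 hM))

theorem cX_mul_L (h₁ : A₁ * A₁ = α • (1 : Matrix Ω Ω ℝ) + (α - 1) • A₁)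
    (h₂ : A₂ * A₂ = β • (1 : Matrix Ω Ω ℝ) + (β - 1) • A₂) (n : ℕ) :
    cX α β A₁ A₂ * alt A₁ A₂ (n + 1) - alt A₁ A₂ (n + 3) ∈ Fil A₁ A₂ (n + 2) := by
  have e0 : alt A₁ A₂ (n + 1) ∈ Fil A₁ A₂ (n + 1) := L_mem_Fil _ _ le_rfl
  have e1 : A₁ * alt A₁ A₂ (n + 1) ∈ Fil A₁ A₂ (n + 1) := mul_L_mem h₁ le_rfl
  have e2 := mul₂_Fil h₂ e0
  have e21 := mul₂_Fil h₂ e1
  have m1 := Fil_mono A₁ A₂ (show n + 1 ≤ n + 2 by omega)
  have key : cX α β A₁ A₂ * alt A₁ A₂ (n + 1) - alt A₁ A₂ (n + 3) =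
      A₂ * (A₁ * alt A₁ A₂ (n + 1)) - (β - 1) • (A₁ * alt A₁ A₂ (n + 1))
        - (α - 1) • (A₂ * alt A₁ A₂ (n + 1)) + ((α - 1) * (β - 1)) • alt A₁ A₂ (n + 1) := by
    have : alt A₁ A₂ (n + 3) = A₁ * (A₂ * alt A₁ A₂ (n + 1)) := rfl
    rw [this]
    unfold cX
    simp only [add_mul, sub_mul, smul_mul_assoc, one_mul, mul_assoc]
    abel
  rw [key]
  exact Submodule.add_mem _ (Submodule.sub_mem _ (Submodule.sub_mem _ e21
    (Submodule.smul_mem _ _ (m1 e1))) (Submodule.smul_mem _ _ e2))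
    (Submodule.smul_mem _ _ (m1 e0))

theorem cX_mul_R (h₁ : A₁ * A₁ = α • (1 : Matrix Ω Ω ℝ) + (α - 1) • A₁)
    (h₂ : A₂ * A₂ = β • (1 : Matrix Ω Ω ℝ) + (β - 1) • A₂) (n : ℕ) :
    cX α β A₁ A₂ * alt A₂ A₁ (n + 1) - alt A₂ A₁ (n + 3) ∈ Fil A₁ A₂ (n + 2) := by
  rw [← Fil_swap, ← cX_swap]
  exact cX_mul_L h₂ h₁ n

theorem cX_pow_succ (h₁ : A₁ * A₁ = α • (1 : Matrix Ω Ω ℝ) + (α - 1) • A₁)
    (h₂ : A₂ * A₂ = β • (1 : Matrix Ω Ω ℝ) + (β - 1) • A₂) (k : ℕ) :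
    cX α β A₁ A₂ ^ (k + 1) - alt A₁ A₂ (2 * k + 2) - alt A₂ A₁ (2 * k + 2)
      ∈ Fil A₁ A₂ (2 * k + 1) := by
  induction k with
  | zero =>
    have key : cX α β A₁ A₂ ^ (0 + 1) - alt A₁ A₂ (2 * 0 + 2) - alt A₂ A₁ (2 * 0 + 2) =
        ((α - 1) * (β - 1)) • alt A₁ A₂ 0 - (β - 1) • alt A₁ A₂ 1 - (α - 1) • alt A₂ A₁ 1 := by
      simp only [alt, cX, mul_one, zero_add, pow_one]
      abel
    rw [key]
    exact Submodule.sub_mem _ (Submodule.sub_mem _ (Submodule.smul_mem _ _ (L_mem_Fil _ _ (by omega)))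
      (Submodule.smul_mem _ _ (L_mem_Fil _ _ (by omega))))
      (Submodule.smul_mem _ _ (R_mem_Fil _ _ (by omega)))
  | succ k ih =>
    have e1 := cX_mul_Fil h₁ h₂ ih
    have e2 := cX_mul_L h₁ h₂ (2 * k + 1)
    have e3 := cX_mul_R h₁ h₂ (2 * k + 1)
    have key : cX α β A₁ A₂ ^ (k + 1 + 1) - alt A₁ A₂ (2 * (k + 1) + 2) - alt A₂ A₁ (2 * (k + 1) + 2)
        = cX α β A₁ A₂ * (cX α β A₁ A₂ ^ (k + 1) - alt A₁ A₂ (2 * k + 2) - alt A₂ A₁ (2 * k + 2))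
          + (cX α β A₁ A₂ * alt A₁ A₂ (2 * k + 1 + 1) - alt A₁ A₂ (2 * k + 1 + 3))
          + (cX α β A₁ A₂ * alt A₂ A₁ (2 * k + 1 + 1) - alt A₂ A₁ (2 * k + 1 + 3)) := by
      have i1 : 2 * (k + 1) + 2 = 2 * k + 1 + 3 := by ring
      have i2 : 2 * k + 2 = 2 * k + 1 + 1 := by ring
      rw [i1, i2, pow_succ' _ (k + 1), mul_sub, mul_sub]
      abel
    rw [key]
    have i3 : 2 * (k + 1) + 1 = 2 * k + 1 + 2 := by ring
    rw [i3]
    exact Submodule.add_mem _ (Submodule.add_mem _ e1 e2) e3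

theorem cX_pow_mem (h₁ : A₁ * A₁ = α • (1 : Matrix Ω Ω ℝ) + (α - 1) • A₁)
    (h₂ : A₂ * A₂ = β • (1 : Matrix Ω Ω ℝ) + (β - 1) • A₂) (k : ℕ) :
    cX α β A₁ A₂ ^ k ∈ Fil A₁ A₂ (2 * k) := by
  induction k with
  | zero => rw [pow_zero]; exact L_mem_Fil A₁ A₂ (i := 0) le_rfl
  | succ k ih => rw [pow_succ']; exact cX_mul_Fil h₁ h₂ ih

end table

theorem Data.orth_Fil (d : Data m a b A₁ A₂) {j n : ℕ} (hj : j < n) (hn : n ≤ m)
    {M : Matrix Ω Ω ℝ} (hM : M ∈ Fil A₁ A₂ j) : trace (M * (alt A₁ A₂ n)ᵀ) = 0 := by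
  unfold Fil at hM
  induction hM using Submodule.span_induction with
  | mem x hx =>
    obtain ⟨i, hi, rfl | rfl⟩ := hx
    · exact d.orthLL i (by omega) n hn (by omega)
    · exact (Data.swap d).orthLR i (by omega) n hn (by omega)
  | zero => rw [zero_mul, trace_zero]
  | add x y _ _ hx hy => rw [add_mul, trace_add, hx, hy, add_zero]
  | smul c x _ hx => rw [smul_mul_assoc, trace_smul, hx, smul_zero]

theorem Data.pow_pairing_pos (d : Data m a b A₁ A₂) (k : ℕ) (hk : 2 * k ≤ m) :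
    0 < trace (cX (a : ℝ) b A₁ A₂ ^ k * (alt A₁ A₂ (2 * k))ᵀ) := by
  have ha : (0 : ℝ) < a := by have := d.ha; positivity
  have hb : (0 : ℝ) < b := by have := d.hb; positivity
  cases k with
  | zero =>
    have := d.normL 0 (Nat.zero_le _)
    rw [pow_zero]
    have e : (1 : Matrix Ω Ω ℝ) = alt A₁ A₂ 0 := rfl
    rw [mul_zero, e, this]
    exact mul_pos (Data.card_pos d) (alt_pos ha hb 0)
  | succ k =>
    have h1 := Data.orth_Fil d (j := 2 * k + 1) (n := 2 * k + 2) (by omega) (by omega)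
      (cX_pow_succ d.sq₁ d.sq₂ k)
    rw [sub_mul, sub_mul, trace_sub, trace_sub, d.normL _ (by omega)] at h1
    have e : 2 * (k + 1) = 2 * k + 2 := by ring
    rw [e]
    have hpos : 0 < (Fintype.card Ω : ℝ) * alt (a : ℝ) b (2 * k + 2) :=
      mul_pos (Data.card_pos d) (alt_pos ha hb _)
    have h2 : 0 ≤ trace (alt A₂ A₁ (2 * k + 2) * (alt A₁ A₂ (2 * k + 2))ᵀ) := by
      rcases Nat.lt_or_ge (2 * k + 2) m with hlt | hge
      · rw [(Data.swap d).orthLR _ hlt _ hlt.le (by omega)]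
      · have : 2 * k + 2 = m := by omega
        rw [this, ← d.braid, d.normL _ le_rfl]
        exact (mul_pos (Data.card_pos d) (alt_pos ha hb _)).le
    linarith

theorem aeval_ne_zero (d : Data m a b A₁ A₂) (Q : ℝ[X]) (hQ : Q ≠ 0) (hdeg : 2 * Q.natDegree ≤ m) :
    aeval (cX (a : ℝ) b A₁ A₂) Q ≠ 0 := by
  intro h0
  have h1 : trace (aeval (cX (a : ℝ) b A₁ A₂) Q * (alt A₁ A₂ (2 * Q.natDegree))ᵀ) = 0 := by
    rw [h0, zero_mul, trace_zero]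
  rw [aeval_eq_sum_range, Finset.sum_mul, trace_sum, Finset.sum_range_succ,
    Finset.sum_eq_zero, zero_add, smul_mul_assoc, trace_smul, smul_eq_mul] at h1
  · rcases mul_eq_zero.mp h1 with h | h
    · exact hQ (leadingCoeff_eq_zero.mp h)
    · exact (Data.pow_pairing_pos d _ hdeg).ne' h
  · intro i hi
    rw [Finset.mem_range] at hi
    rw [smul_mul_assoc, trace_smul, Data.orth_Fil d (j := 2 * i) (by omega) hdeg
      (cX_pow_mem d.sq₁ d.sq₂ i), smul_zero]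

end Cfsg.Agent.Lib.Helper54.FH
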