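import Mathlib

/-!
# Witt's lemma on transitive extensions: the group theoretic core
-/

set_option autoImplicit false

namespace Cfsg.Agent.Lib.Helper54.Witt

/-- `G ∪ G h G` is a group. -/
theorem core {Γ : Type*} [Group Γ] (G Gx : Subgroup Γ) (hle : Gx ≤ G) (h g : Γ) (hg : g ∈ G)
    (hdec : ∀ f ∈ G, f ∈ Gx ∨ ∃ a ∈ Gx, ∃ b ∈ Gx, f = a * g * b)
    (hn : ∀ f ∈ Gx, h * f * h⁻¹ ∈ Gx)
    (h6 : (g * h) ^ 3 ∈ G) (h7 : h ^ 2 ∈ G) :
    ∀ f ∈ Subgroup.closure ((G : Set Γ) ∪ {h}), f ∈ G ∨ ∃ a ∈ G, ∃ b ∈ G, f = a * h * b := by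
  -- closure under multiplication by `G`
  have hL : ∀ u ∈ G, ∀ y, (y ∈ G ∨ ∃ a ∈ G, ∃ b ∈ G, y = a * h * b) →
      (u * y ∈ G ∨ ∃ a ∈ G, ∃ b ∈ G, u * y = a * h * b) := by
    rintro u hu y (hy | ⟨a, ha, b, hb, rfl⟩)
    · exact Or.inl (G.mul_mem hu hy)
    · exact Or.inr ⟨u * a, G.mul_mem hu ha, b, hb, by group⟩
  have hR : ∀ u ∈ G, ∀ y, (y ∈ G ∨ ∃ a ∈ G, ∃ b ∈ G, y = a * h * b) →
      (y * u ∈ G ∨ ∃ a ∈ G, ∃ b ∈ G, y * u = a * h * b) := by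
    rintro u hu y (hy | ⟨a, ha, b, hb, rfl⟩)
    · exact Or.inl (G.mul_mem hy hu)
    · exact Or.inr ⟨a, ha, b * u, G.mul_mem hb hu, by group⟩
  have hah : ∀ a ∈ G, (h * a * h ∈ G ∨ ∃ c ∈ G, ∃ d ∈ G, h * a * h = c * h * d) := by
    intro a ha
    rcases hdec a ha with hax | ⟨a1, ha1, b1, hb1, rfl⟩
    · left
      have : h * a * h = (h * a * h⁻¹) * h ^ 2 := by group
      rw [this]
      exact G.mul_mem (hle (hn a hax)) h7
    · right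
      refine ⟨(h * a1 * h⁻¹) * g⁻¹ * (g * h) ^ 3, ?_,
        (h ^ 2)⁻¹ * g⁻¹ * (h ^ 2)⁻¹ * (h * b1 * h⁻¹) * h ^ 2, ?_, ?_⟩
      · exact G.mul_mem (G.mul_mem (hle (hn a1 ha1)) (G.inv_mem hg)) h6
      · exact G.mul_mem (G.mul_mem (G.mul_mem (G.mul_mem (G.inv_mem h7) (G.inv_mem hg))
          (G.inv_mem h7)) (hle (hn b1 hb1))) h7
      · simp only [pow_succ, pow_zero, one_mul]
        group
  have hH : ∀ y, (y ∈ G ∨ ∃ a ∈ G, ∃ b ∈ G, y = a * h * b) →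
      (h * y ∈ G ∨ ∃ a ∈ G, ∃ b ∈ G, h * y = a * h * b) := by
    rintro y (hy | ⟨a, ha, b, hb, rfl⟩)
    · exact Or.inr ⟨1, G.one_mem, y, hy, by group⟩
    · have := hR b hb _ (hah a ha)
      have e : h * (a * h * b) = h * a * h * b := by group
      rw [e]
      exact this
  intro f hf
  induction hf using Subgroup.closure_induction_left with
  | one => exact Or.inl G.one_mem
  | mul_left u hu y _ hy =>
    rcases hu with hu | hu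
    · exact hL u hu y hy
    · rw [Set.mem_singleton_iff.mp hu]
      exact hH y hy
  | inv_mul_cancel u hu y _ hy =>
    rcases hu with hu | hu
    · exact hL _ (G.inv_mem hu) y hy
    · rw [Set.mem_singleton_iff.mp hu]
      have e : h⁻¹ * y = h * ((h ^ 2)⁻¹ * y) := by group
      rw [e]
      exact hH _ (hL _ (G.inv_mem h7) y hy)

/-- the permutation group version -/
theorem perm_core {α : Type*} (G : Subgroup (Equiv.Perm α)) (h g : Equiv.Perm α) (x y : α)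
    (hg : g ∈ G) (hgy : g y = x)
    (htr : ∀ f ∈ G, f x ≠ x → ∃ b ∈ G, b x = x ∧ b (f⁻¹ x) = y)
    (hn : ∀ f ∈ G, f x = x → h * f * h⁻¹ ∈ G ∧ (h * f * h⁻¹) x = x)
    (h6 : (g * h) ^ 3 ∈ G) (h7 : h ^ 2 ∈ G) :
    ∀ f ∈ Subgroup.closure ((G : Set (Equiv.Perm α)) ∪ {h}),
      f ∈ G ∨ ∃ a ∈ G, ∃ b ∈ G, f = a * h * b := by
  refine core G (G ⊓ MulAction.stabilizer (Equiv.Perm α) x) inf_le_left h g hg ?_ ?_ h6 h7
  · intro f hf
    by_cases hfx : f x = x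
    · exact Or.inl ⟨hf, hfx⟩
    · right
      obtain ⟨b, hb, hbx, hbw⟩ := htr f hf hfx
      refine ⟨f * b⁻¹ * g⁻¹, ⟨G.mul_mem (G.mul_mem hf (G.inv_mem hb)) (G.inv_mem hg), ?_⟩,
        b, ⟨hb, hbx⟩, by group⟩
      show (f * b⁻¹ * g⁻¹) x = x
      have e1 : g⁻¹ x = y := by rw [← hgy]; simp
      have e2 : b⁻¹ y = f⁻¹ x := by rw [← hbw]; simp
      simp [Equiv.Perm.mul_apply, e1, e2]
  · rintro f ⟨hf, hfx⟩
    exact ⟨(hn f hf hfx).1, (hn f hf hfx).2⟩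

theorem perm_core_stab {α : Type*} (G : Subgroup (Equiv.Perm α)) (h : Equiv.Perm α) (ω : α)
    (hfix : ∀ f ∈ G, f ω = ω) (hω : h ω ≠ ω)
    (hdec : ∀ f ∈ Subgroup.closure ((G : Set (Equiv.Perm α)) ∪ {h}),
      f ∈ G ∨ ∃ a ∈ G, ∃ b ∈ G, f = a * h * b) :
    ∀ f ∈ Subgroup.closure ((G : Set (Equiv.Perm α)) ∪ {h}), f ω = ω ↔ f ∈ G := by
  intro f hf
  refine ⟨fun hfω => ?_, hfix f⟩
  rcases hdec f hf with h1 | ⟨a, ha, b, hb, rfl⟩
  · exact h1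
  · exfalso
    apply hω
    have e : a (h ω) = a ω := by
      rw [hfix a ha]
      simpa [Equiv.Perm.mul_apply, hfix b hb] using hfω
    exact a.injective e

end Cfsg.Agent.Lib.Helper54.Witt
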