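import Cfsg.Agent.Lib.Helper54.Witt

/-!
# Witt's lemma on transitive extensions: the induction
-/

set_option autoImplicit false

namespace Cfsg.Agent.Lib.Helper54.Witt

open MulAction

variable {α : Type*}

/-- the subgroup `H` -/
abbrev HH (q : ℕ → α) (G : Subgroup (Equiv.Perm α)) : Subgroup (Equiv.Perm α) :=
  G ⊓ stabilizer (Equiv.Perm α) (q 1) ⊓ stabilizer (Equiv.Perm α) (q 2)

/-- the generated group -/
abbrev KK (t : ℕ) (G : Subgroup (Equiv.Perm α)) (s : ℕ → Equiv.Perm α) :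
    Subgroup (Equiv.Perm α) :=
  Subgroup.closure ((G : Set (Equiv.Perm α)) ∪ {x | ∃ i : ℕ, 2 ≤ i ∧ i + 1 ≤ t ∧ x = s i})

structure Data (t : ℕ) (q : ℕ → α) (G : Subgroup (Equiv.Perm α)) (s : ℕ → Equiv.Perm α) :
    Prop where
  hq : ∀ i j : ℕ, 1 ≤ i → i ≤ t → 1 ≤ j → j ≤ t → q i = q j → i = j
  hfix : ∀ g ∈ G, ∀ i : ℕ, 3 ≤ i → i ≤ t → g (q i) = q i
  h2 : ∀ a b c d : α, (∀ i, 3 ≤ i → i ≤ t → a ≠ q i ∧ b ≠ q i ∧ c ≠ q i ∧ d ≠ q i) → a ≠ b →
    c ≠ d → ∃ g ∈ G, g a = c ∧ g b = d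
  hs1 : s 1 ∈ G
  hs1q : s 1 (q 1) = q 2 ∧ s 1 (q 2) = q 1
  hsq : ∀ i : ℕ, 2 ≤ i → i + 1 ≤ t → s i (q i) = q (i + 1) ∧ s i (q (i + 1)) = q i ∧
    ∀ j : ℕ, 1 ≤ j → j ≤ t → j ≠ i → j ≠ i + 1 → s i (q j) = q j
  hsq2 : ∀ i : ℕ, 1 ≤ i → i + 1 ≤ t → s i ^ 2 ∈ HH q G
  hbraid : ∀ i : ℕ, 1 ≤ i → i + 2 ≤ t → (s i * s (i + 1)) ^ 3 ∈ HH q G
  hcomm : ∀ i j : ℕ, 1 ≤ i → i + 2 ≤ j → j + 1 ≤ t →
    (s i * s j) ^ 2 ∈ HH q G ∧ (s j * s i) ^ 2 ∈ HH q G
  hnorm : ∀ i : ℕ, 2 ≤ i → i + 1 ≤ t → ∀ g ∈ G ⊓ stabilizer (Equiv.Perm α) (q 2),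
    s i * g * (s i)⁻¹ ∈ G ⊓ stabilizer (Equiv.Perm α) (q 2)

variable {t : ℕ} {q : ℕ → α} {G : Subgroup (Equiv.Perm α)} {s : ℕ → Equiv.Perm α}

theorem HH_le : HH q G ≤ G := inf_le_left.trans inf_le_left

theorem Data.qne (d : Data t q G s) {i j : ℕ} (hi : 1 ≤ i) (hi' : i ≤ t) (hj : 1 ≤ j) (hj' : j ≤ t)
    (hij : i ≠ j) : q i ≠ q j := fun h => hij (d.hq i j hi hi' hj hj' h)

/-- the point stabiliser is transitive on the other moved points -/
theorem Data.htr (d : Data t q G s) (ht : 2 ≤ t) (f : Equiv.Perm α) (hf : f ∈ G)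
    (hfx : f (q 2) ≠ q 2) : ∃ b ∈ G, b (q 2) = q 2 ∧ b (f⁻¹ (q 2)) = q 1 := by
  refine d.h2 (q 2) (f⁻¹ (q 2)) (q 2) (q 1) ?_ ?_ ?_
  · intro i hi hi'
    have h2i : q 2 ≠ q i := d.qne (by omega) ht (by omega) hi' (by omega)
    refine ⟨h2i, ?_, h2i, d.qne le_rfl (by omega) (by omega) hi' (by omega)⟩
    intro h
    apply h2i
    have : f (f⁻¹ (q 2)) = f (q i) := by rw [h]
    rw [d.hfix f hf i hi hi'] at this
    simpa using this
  · intro h
    apply hfx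
    have : f (q 2) = f (f⁻¹ (q 2)) := by rw [← h]
    simpa using this
  · exact d.qne (by omega) ht le_rfl (by omega) (by omega)

/-- double coset decomposition of `G` -/
theorem Data.dec (d : Data t q G s) (ht : 2 ≤ t) (f : Equiv.Perm α) (hf : f ∈ G) :
    f (q 2) = q 2 ∨ ∃ a ∈ G, ∃ b ∈ G, a (q 2) = q 2 ∧ b (q 2) = q 2 ∧ f = a * s 1 * b := by
  by_cases hfx : f (q 2) = q 2
  · exact Or.inl hfx
  · right
    obtain ⟨b, hb, hbx, hbw⟩ := d.htr ht f hf hfx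
    refine ⟨f * b⁻¹ * (s 1)⁻¹, G.mul_mem (G.mul_mem hf (G.inv_mem hb)) (G.inv_mem d.hs1),
      b, hb, ?_, hbx, by group⟩
    have e1 : (s 1)⁻¹ (q 2) = q 1 := by rw [← d.hs1q.1]; simp
    have e2 : b⁻¹ (q 1) = f⁻¹ (q 2) := by rw [← hbw]; simp
    simp [Equiv.Perm.mul_apply, e1, e2]

/-- `⟨G, s 2⟩ = G ∪ G (s 2) G` -/
theorem Data.dec' (d : Data (t + 1) q G s) (ht : 2 ≤ t) :
    ∀ f ∈ Subgroup.closure ((G : Set (Equiv.Perm α)) ∪ {s 2}),
      f ∈ G ∨ ∃ a ∈ G, ∃ b ∈ G, f = a * s 2 * b := by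
  refine perm_core G (s 2) (s 1) (q 2) (q 1) d.hs1 d.hs1q.1 (d.htr (by omega)) ?_
    (HH_le (d.hbraid 1 le_rfl (by omega))) (HH_le (d.hsq2 2 (by omega) (by omega)))
  intro f hf hfx
  exact d.hnorm 2 le_rfl (by omega) f ⟨hf, hfx⟩

theorem Data.stab (d : Data (t + 1) q G s) (ht : 2 ≤ t) :
    ∀ f ∈ Subgroup.closure ((G : Set (Equiv.Perm α)) ∪ {s 2}), f (q 3) = q 3 ↔ f ∈ G := by
  refine perm_core_stab G (s 2) (q 3) (fun f hf => d.hfix f hf 3 le_rfl (by omega)) ?_ (d.dec' ht)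
  rw [(d.hsq 2 le_rfl (by omega)).2.1]
  exact d.qne (by omega) (by omega) (by omega) (by omega) (by omega)

/-- the later `s j` normalise `G` -/
theorem Data.norm (d : Data t q G s) (ht : 2 ≤ t) (j : ℕ) (hj : 3 ≤ j) (hj' : j + 1 ≤ t)
    (f : Equiv.Perm α) (hf : f ∈ G) : s j * f * (s j)⁻¹ ∈ G := by
  have h1 : s j * s 1 * (s j)⁻¹ ∈ G := by
    have e : s j * s 1 * (s j)⁻¹ = (s 1)⁻¹ * (s 1 * s j) ^ 2 * (s j ^ 2)⁻¹ := by
      simp only [pow_succ, pow_zero, one_mul]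
      group
    rw [e]
    exact G.mul_mem (G.mul_mem (G.inv_mem d.hs1) (HH_le (d.hcomm 1 j le_rfl (by omega) hj').1))
      (G.inv_mem (HH_le (d.hsq2 j (by omega) hj')))
  rcases d.dec ht f hf with hfx | ⟨a, ha, b, hb, hax, hbx, rfl⟩
  · exact (d.hnorm j (by omega) hj' f ⟨hf, hfx⟩).1
  · have e : s j * (a * s 1 * b) * (s j)⁻¹ =
        (s j * a * (s j)⁻¹) * (s j * s 1 * (s j)⁻¹) * (s j * b * (s j)⁻¹) := by group
    rw [e]
    exact G.mul_mem (G.mul_mem (d.hnorm j (by omega) hj' a ⟨ha, hax⟩).1 h1)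
      (d.hnorm j (by omega) hj' b ⟨hb, hbx⟩).1

/-- `G` is transitive on the moved points -/
theorem Data.trans1 (d : Data t q G s) (ht : 2 ≤ t) (u v : α)
    (hu : ∀ i, 3 ≤ i → i ≤ t → u ≠ q i) (hv : ∀ i, 3 ≤ i → i ≤ t → v ≠ q i) :
    ∃ g ∈ G, g u = v := by
  have aux : ∀ w : α, ∃ w', w ≠ w' ∧ ∀ i, 3 ≤ i → i ≤ t → w' ≠ q i := by
    intro w
    by_cases hw : w = q 1
    · refine ⟨q 2, ?_, fun i hi hi' => d.qne (by omega) ht (by omega) hi' (by omega)⟩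
      rw [hw]
      exact d.qne le_rfl (by omega) (by omega) ht (by omega)
    · exact ⟨q 1, hw, fun i hi hi' => d.qne le_rfl (by omega) (by omega) hi' (by omega)⟩
  obtain ⟨u', huu, hu'⟩ := aux u
  obtain ⟨v', hvv, hv'⟩ := aux v
  obtain ⟨g, hg, h1, -⟩ := d.h2 u u' v v'
    (fun i hi hi' => ⟨hu i hi hi', hu' i hi hi', hv i hi hi', hv' i hi hi'⟩) huu hvv
  exact ⟨g, hg, h1⟩

theorem Data.fix' (d : Data (t + 1) q G s) (ht : 2 ≤ t) (f : Equiv.Perm α)
    (hf : f ∈ Subgroup.closure ((G : Set (Equiv.Perm α)) ∪ {s 2})) (i : ℕ) (hi : 4 ≤ i)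
    (hi' : i ≤ t + 1) : f (q i) = q i := by
  have : Subgroup.closure ((G : Set (Equiv.Perm α)) ∪ {s 2}) ≤
      stabilizer (Equiv.Perm α) (q i) := by
    rw [Subgroup.closure_le]
    rintro g (hg | hg)
    · exact d.hfix g hg i (by omega) hi'
    · rw [Set.mem_singleton_iff.mp hg]
      exact (d.hsq 2 le_rfl (by omega)).2.2 i (by omega) hi' (by omega) (by omega)
  exact this hf

theorem Data.normalize (d : Data (t + 1) q G s) (ht : 2 ≤ t) (a b : α)
    (ha : ∀ i, 4 ≤ i → i ≤ t + 1 → a ≠ q i) (hb : ∀ i, 4 ≤ i → i ≤ t + 1 → b ≠ q i)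
    (hab : a ≠ b) :
    ∃ f ∈ Subgroup.closure ((G : Set (Equiv.Perm α)) ∪ {s 2}), f a = q 3 ∧ f b = q 2 := by
  have hG : ∀ g ∈ G, g ∈ Subgroup.closure ((G : Set (Equiv.Perm α)) ∪ {s 2}) :=
    fun g hg => Subgroup.subset_closure (Or.inl hg)
  have hs : s 2 ∈ Subgroup.closure ((G : Set (Equiv.Perm α)) ∪ {s 2}) :=
    Subgroup.subset_closure (Or.inr rfl)
  have hq2 : ∀ i, 3 ≤ i → i ≤ t + 1 → q 2 ≠ q i :=
    fun i hi hi' => d.qne (by omega) (by omega) (by omega) hi' (by omega)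
  obtain ⟨f1, hf1, hf1a⟩ : ∃ f1 ∈ Subgroup.closure ((G : Set (Equiv.Perm α)) ∪ {s 2}),
      f1 a = q 3 := by
    by_cases ha3 : a = q 3
    · exact ⟨1, Subgroup.one_mem _, ha3⟩
    · obtain ⟨g1, hg1, hg1a⟩ := d.trans1 (by omega) a (q 2) (by
        intro i hi hi'
        rcases Nat.eq_or_lt_of_le hi with rfl | hi
        · exact ha3
        · exact ha i hi hi') hq2
      refine ⟨s 2 * g1, Subgroup.mul_mem _ hs (hG g1 hg1), ?_⟩
      rw [Equiv.Perm.mul_apply, hg1a]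
      exact (d.hsq 2 le_rfl (by omega)).1
  obtain ⟨g2, hg2, hg2b⟩ := d.trans1 (by omega) (f1 b) (q 2) (by
    intro i hi hi'
    rcases Nat.eq_or_lt_of_le hi with rfl | hi
    · intro h
      exact hab (f1.injective (hf1a.trans h.symm))
    · intro h
      rw [← d.fix' ht f1 hf1 i hi hi'] at h
      exact hb i hi hi' (f1.injective h)) hq2
  refine ⟨g2 * f1, Subgroup.mul_mem _ (hG g2 hg2) hf1, ?_, ?_⟩
  · rw [Equiv.Perm.mul_apply, hf1a]
    exact d.hfix g2 hg2 3 le_rfl (by omega)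
  · rw [Equiv.Perm.mul_apply, hg2b]

theorem Data.HH_le' (d : Data (t + 1) q G s) (ht : 2 ≤ t) :
    HH q G ≤ HH (fun i => q (i + 1)) (Subgroup.closure ((G : Set (Equiv.Perm α)) ∪ {s 2})) := by
  rintro f ⟨⟨hf, -⟩, hf2⟩
  exact ⟨⟨Subgroup.subset_closure (Or.inl hf), hf2⟩, d.hfix f hf 3 le_rfl (by omega)⟩

/-- the shifted data -/
theorem Data.shift (d : Data (t + 1) q G s) (ht : 2 ≤ t) :
    Data t (fun i => q (i + 1)) (Subgroup.closure ((G : Set (Equiv.Perm α)) ∪ {s 2}))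
      (fun i => s (i + 1)) where
  hq := by
    intro i j hi hi' hj hj' h
    have := d.hq (i + 1) (j + 1) (by omega) (by omega) (by omega) (by omega) h
    omega
  hfix := by
    intro g hg i hi hi'
    exact d.fix' ht g hg (i + 1) (by omega) (by omega)
  h2 := by
    intro a b c e h hab hce
    have h' : ∀ i, 4 ≤ i → i ≤ t + 1 → a ≠ q i ∧ b ≠ q i ∧ c ≠ q i ∧ e ≠ q i := by
      intro i hi hi'
      have := h (i - 1) (by omega) (by omega)
      rwa [show i - 1 + 1 = i by omega] at this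
    obtain ⟨f1, hf1, h1a, h1b⟩ := d.normalize ht a b (fun i hi hi' => (h' i hi hi').1)
      (fun i hi hi' => (h' i hi hi').2.1) hab
    obtain ⟨f2, hf2, h2a, h2b⟩ := d.normalize ht c e (fun i hi hi' => (h' i hi hi').2.2.1)
      (fun i hi hi' => (h' i hi hi').2.2.2) hce
    refine ⟨f2⁻¹ * f1, Subgroup.mul_mem _ (Subgroup.inv_mem _ hf2) hf1, ?_, ?_⟩
    · rw [Equiv.Perm.mul_apply, h1a, Equiv.Perm.inv_eq_iff_eq, h2a]
    · rw [Equiv.Perm.mul_apply, h1b, Equiv.Perm.inv_eq_iff_eq, h2b]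
  hs1 := Subgroup.subset_closure (Or.inr rfl)
  hs1q := ⟨(d.hsq 2 le_rfl (by omega)).1, (d.hsq 2 le_rfl (by omega)).2.1⟩
  hsq := by
    intro i hi hi'
    obtain ⟨h1, h2, h3⟩ := d.hsq (i + 1) (by omega) (by omega)
    exact ⟨h1, h2, fun j hj hj' hji hji' => h3 (j + 1) (by omega) (by omega) (by omega) (by omega)⟩
  hsq2 := fun i hi hi' => d.HH_le' ht (d.hsq2 (i + 1) (by omega) (by omega))
  hbraid := fun i hi hi' => d.HH_le' ht (d.hbraid (i + 1) (by omega) (by omega))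
  hcomm := fun i j hi hij hj =>
    ⟨d.HH_le' ht (d.hcomm (i + 1) (j + 1) (by omega) (by omega) (by omega)).1,
      d.HH_le' ht (d.hcomm (i + 1) (j + 1) (by omega) (by omega) (by omega)).2⟩
  hnorm := by
    rintro i hi hi' g ⟨hg, hg3⟩
    have hgG : g ∈ G := (d.stab ht g hg).mp hg3
    have h1 := d.norm (by omega) (i + 1) (by omega) (by omega) g hgG
    exact ⟨Subgroup.subset_closure (Or.inl h1), d.hfix _ h1 3 le_rfl (by omega)⟩

theorem KK_shift (t : ℕ) (ht : 2 ≤ t) (G : Subgroup (Equiv.Perm α)) (s : ℕ → Equiv.Perm α) :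
    KK t (Subgroup.closure ((G : Set (Equiv.Perm α)) ∪ {s 2})) (fun i => s (i + 1)) =
      KK (t + 1) G s := by
  apply le_antisymm
  · rw [Subgroup.closure_le]
    rintro f (hf | ⟨i, hi, hi', rfl⟩)
    · have : Subgroup.closure ((G : Set (Equiv.Perm α)) ∪ {s 2}) ≤ KK (t + 1) G s := by
        rw [Subgroup.closure_le]
        rintro g (hg | hg)
        · exact Subgroup.subset_closure (Or.inl hg)
        · exact Subgroup.subset_closure (Or.inr ⟨2, le_rfl, by omega, hg⟩)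
      exact this hf
    · exact Subgroup.subset_closure (Or.inr ⟨i + 1, by omega, by omega, rfl⟩)
  · rw [Subgroup.closure_le]
    rintro f (hf | ⟨i, hi, hi', rfl⟩)
    · exact Subgroup.subset_closure (Or.inl (Subgroup.subset_closure (Or.inl hf)))
    · rcases Nat.eq_or_lt_of_le hi with rfl | hi
      · exact Subgroup.subset_closure (Or.inl (Subgroup.subset_closure (Or.inr rfl)))
      · refine Subgroup.subset_closure (Or.inr ⟨i - 1, by omega, by omega, ?_⟩)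
        show s i = s (i - 1 + 1)
        rw [show i - 1 + 1 = i by omega]

theorem main (t : ℕ) (ht : 2 ≤ t) : ∀ (q : ℕ → α) (G : Subgroup (Equiv.Perm α))
    (s : ℕ → Equiv.Perm α), Data t q G s →
    (∀ a b : Fin t ↪ α, ∃ f ∈ KK t G s, ∀ i, f (a i) = b i) ∧
    (∀ f ∈ KK t G s, (∀ i, 1 ≤ i → i ≤ t → f (q i) = q i) → f ∈ G) := by
  induction t, ht using Nat.le_induction with
  | base =>
    intro q G s d
    have hK : KK 2 G s ≤ G := by
      rw [Subgroup.closure_le]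
      rintro f (hf | ⟨i, hi, hi', rfl⟩)
      · exact hf
      · omega
    refine ⟨?_, fun f hf _ => hK hf⟩
    intro a b
    obtain ⟨g, hg, h0, h1⟩ := d.h2 (a 0) (a 1) (b 0) (b 1) (fun i hi hi' => by omega)
      (fun h => by simpa using a.injective h) (fun h => by simpa using b.injective h)
    refine ⟨g, Subgroup.subset_closure (Or.inl hg), ?_⟩
    intro i
    fin_cases i
    · exact h0
    · exact h1
  | succ t ht ih =>
    intro q G s d
    obtain ⟨ihA, ihB⟩ := ih _ _ _ (d.shift ht)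
    rw [KK_shift t ht G s] at ihA ihB
    constructor
    · -- transitivity
      have hQ : Function.Injective (fun i : Fin t => q (i.val + 2)) := by
        intro i j hij
        have := d.hq (i.val + 2) (j.val + 2) (by omega) (by omega) (by omega) (by omega) hij
        exact Fin.ext (by omega)
      have norm : ∀ a : Fin (t + 1) ↪ α, ∃ f ∈ KK (t + 1) G s,
          (∀ i : Fin t, f (a i.castSucc) = q (i.val + 2)) ∧
          ∀ j, 2 ≤ j → j ≤ t + 1 → f (a (Fin.last t)) ≠ q j := by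
        intro a
        obtain ⟨f, hf, hfa⟩ := ihA (Fin.castSuccEmb.trans a) ⟨_, hQ⟩
        refine ⟨f, hf, hfa, ?_⟩
        intro j hj hj' h
        have h1 := hfa ⟨j - 2, by omega⟩
        simp only [Function.Embedding.coeFn_mk] at h1
        rw [show j - 2 + 2 = j by omega, ← h] at h1
        have h2 := a.injective (f.injective h1)
        have h3 := congrArg Fin.val h2
        simp at h3
        omega
      intro a b
      obtain ⟨fa, hfa, ha1, ha2⟩ := norm a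
      obtain ⟨fb, hfb, hb1, hb2⟩ := norm b
      obtain ⟨g, hg, hg2, hgu⟩ := d.h2 (q 2) (fa (a (Fin.last t))) (q 2) (fb (b (Fin.last t)))
        (by
          intro i hi hi'
          have h2i : q 2 ≠ q i := d.qne (by omega) (by omega) (by omega) hi' (by omega)
          exact ⟨h2i, ha2 i (by omega) hi', h2i, hb2 i (by omega) hi'⟩)
        (ha2 2 le_rfl (by omega)).symm (hb2 2 le_rfl (by omega)).symm
      refine ⟨fb⁻¹ * g * fa, Subgroup.mul_mem _ (Subgroup.mul_mem _ (Subgroup.inv_mem _ hfb)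
        (Subgroup.subset_closure (Or.inl hg))) hfa, ?_⟩
      intro i
      rw [Equiv.Perm.mul_apply, Equiv.Perm.mul_apply, Equiv.Perm.inv_eq_iff_eq]
      refine Fin.lastCases ?_ (fun i => ?_) i
      · exact hgu
      · rw [ha1, hb1]
        rcases Nat.eq_zero_or_pos i.val with h0 | h0
        · rw [h0]; exact hg2
        · exact d.hfix g hg _ (by omega) (by omega)
    · intro f hf hfq
      have h1 := ihB f hf (fun i hi hi' => hfq (i + 1) (by omega) (by omega))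
      exact (d.stab ht f h1).mp (hfq 3 (by omega) (by omega))

end Cfsg.Agent.Lib.Helper54.Witt
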