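import Cfsg.Agent.Lib.Helper61.SemiB

set_option autoImplicit false

/-! Rung R6b of helper38's ladder towards S0732: a linear group over the field with two elements on
a space of `2 ^ q` vectors, `q` prime, with a cyclic normal subgroup transitive on the nonzero
vectors, is semilinear over `GaloisField 2 q`; vector stabilisers have order `1` or `q`. -/

namespace Cfsg.Agent.Lib.Helper54.Z32

/-- the number of ring automorphisms of `GaloisField 2 q` -/
theorem card_ringAut_GF {q : ℕ} (hq : q ≠ 0) :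
    Nat.card (GaloisField 2 q ≃+* GaloisField 2 q) = q := by
  have h1 : Nat.card (GaloisField 2 q ≃ₐ[ZMod 2] GaloisField 2 q) = q := by
    rw [← Nat.card_congr (Equiv.ofBijective _
      (FiniteField.bijective_frobeniusAlgEquivOfAlgebraic_pow (ZMod 2) (GaloisField 2 q))),
      Nat.card_eq_fintype_card, Fintype.card_fin, GaloisField.finrank 2 hq]
  refine Eq.trans (Eq.symm ?_) h1
  apply Nat.card_congr
  refine Equiv.ofBijective (fun σ => σ.toRingEquiv) ⟨?_, ?_⟩
  · intro σ τ h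
    ext x
    exact DFunLike.congr_fun h x
  · intro σ
    refine ⟨AlgEquiv.ofRingEquiv (f := σ) (fun r => ?_), rfl⟩
    have : (σ : GaloisField 2 q →+* GaloisField 2 q).comp (algebraMap (ZMod 2) (GaloisField 2 q)) =
        algebraMap (ZMod 2) (GaloisField 2 q) := Subsingleton.elim _ _
    exact congrArg (fun φ : ZMod 2 →+* GaloisField 2 q => φ r) this

theorem semilinear_GF {V : Type*} [AddCommGroup V] [Module (ZMod 2) V] [Finite V] {q : ℕ}
    (hq : q.Prime) (hV : Nat.card V = 2 ^ q) (H : Subgroup (V ≃ₗ[ZMod 2] V)) (A : Subgroup H)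
    (hAn : A.Normal) (hAc : IsCyclic A)
    (htr : ∀ v w : V, v ≠ 0 → w ≠ 0 → ∃ a ∈ A, ((a : H) : V ≃ₗ[ZMod 2] V) v = w)
    (v₁ : V) (hv₁ : v₁ ≠ 0) :
    (∃ ε : V ≃+ GaloisField 2 q, ∀ h : H, ∃ (a : (GaloisField 2 q)ˣ)
        (φ : GaloisField 2 q ≃+* GaloisField 2 q),
        ∀ v, ε ((h : V ≃ₗ[ZMod 2] V) v) = a * φ (ε v)) ∧
    (Nat.card {h : H // (h : V ≃ₗ[ZMod 2] V) v₁ = v₁} = 1 ∨
      Nat.card {h : H // (h : V ≃ₗ[ZMod 2] V) v₁ = v₁} = q) := by
  classical
  haveI : Nontrivial V := ⟨⟨v₁, 0, hv₁⟩⟩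
  have hirr : ∀ W : Submodule (ZMod 2) V,
      (∀ a ∈ A, ∀ v ∈ W, ((a : H) : V ≃ₗ[ZMod 2] V) v ∈ W) → W = ⊥ ∨ W = ⊤ := by
    intro W hW
    by_cases hb : W = ⊥
    · exact Or.inl hb
    · right
      obtain ⟨v, hvW, hv0⟩ := (Submodule.ne_bot_iff W).mp hb
      rw [eq_top_iff]
      intro w _
      by_cases hw : w = 0
      · rw [hw]; exact W.zero_mem
      · obtain ⟨a, ha, hav⟩ := htr v w hv0 hw
        rw [← hav]
        exact hW a ha v hvW
  obtain ⟨F, _, _, e, he⟩ :=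
    Cfsg.Agent.Lib.Helper61.Semi.semilinear_of_irreducible_cyclic 2 H A hAn hAc hirr
  haveI : Fintype (GaloisField 2 q) := Fintype.ofFinite _
  have hcF : Fintype.card F = Fintype.card (GaloisField 2 q) := by
    rw [← Nat.card_eq_fintype_card, ← Nat.card_eq_fintype_card, GaloisField.card 2 q hq.ne_zero,
      ← hV]
    exact (Nat.card_congr e.toEquiv).symm
  obtain ⟨ψ⟩ : Nonempty (F ≃+* GaloisField 2 q) := ⟨FiniteField.ringEquivOfCardEq hcF⟩
  -- the coordinates, normalised at `v₁`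
  obtain ⟨ε, hε⟩ : ∃ ε : V ≃+ GaloisField 2 q, ∀ v, ε v = ψ (e v) :=
    ⟨e.trans ψ.toAddEquiv, fun v => rfl⟩
  have hsemi : ∀ h : H, ∃ (a : GaloisField 2 q) (φ : GaloisField 2 q ≃+* GaloisField 2 q),
      ∀ v, ε ((h : V ≃ₗ[ZMod 2] V) v) = a * φ (ε v) := by
    intro h
    obtain ⟨a, σ, hσ⟩ := he h
    refine ⟨ψ a, ψ.symm.trans (σ.trans ψ), fun v => ?_⟩
    rw [hε, hσ, map_mul, hε]
    simp
  have hne : ∀ v : V, v ≠ 0 → ε v ≠ 0 := by
    intro v hv h0
    exact hv (by simpa using h0)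
  constructor
  · refine ⟨ε, fun h => ?_⟩
    obtain ⟨a, φ, hφ⟩ := hsemi h
    have ha : a ≠ 0 := by
      rintro rfl
      have h1 := hφ v₁
      rw [zero_mul] at h1
      have h2 : (h : V ≃ₗ[ZMod 2] V) v₁ ≠ 0 := by
        intro h3
        exact hv₁ (by simpa using h3)
      exact hne _ h2 h1
    exact ⟨Units.mk0 a ha, φ, hφ⟩
  · -- the stabiliser of `v₁`
    obtain ⟨c, hc⟩ : ∃ c, c = ε v₁ := ⟨_, rfl⟩
    have hc0 : c ≠ 0 := hc ▸ hne v₁ hv₁
    let S : Subgroup H :=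
      { carrier := {h | (h : V ≃ₗ[ZMod 2] V) v₁ = v₁}
        mul_mem' := by
          intro x y hx hy
          change ((x : V ≃ₗ[ZMod 2] V) * (y : V ≃ₗ[ZMod 2] V)) v₁ = v₁
          rw [LinearEquiv.mul_apply]
          have hx' : (x : V ≃ₗ[ZMod 2] V) v₁ = v₁ := hx
          have hy' : (y : V ≃ₗ[ZMod 2] V) v₁ = v₁ := hy
          rw [hy', hx']
        one_mem' := rfl
        inv_mem' := by
          intro x hx
          have hx' : (x : V ≃ₗ[ZMod 2] V) v₁ = v₁ := hx
          change ((x : V ≃ₗ[ZMod 2] V)⁻¹) v₁ = v₁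
          conv_lhs => rw [← hx']
          change ((x : V ≃ₗ[ZMod 2] V)⁻¹ * (x : V ≃ₗ[ZMod 2] V)) v₁ = v₁
          rw [inv_mul_cancel]
          rfl }
    have hS : ∀ h : S, ∃ φ : GaloisField 2 q ≃+* GaloisField 2 q,
        ∀ x : GaloisField 2 q, φ x = c⁻¹ * ε (((h : H) : V ≃ₗ[ZMod 2] V) (ε.symm (c * x))) := by
      intro h
      obtain ⟨a, φ, hφ⟩ := hsemi (h : H)
      have h1 : ((h : H) : V ≃ₗ[ZMod 2] V) v₁ = v₁ := h.2
      have h2 := hφ v₁
      rw [h1, ← hc] at h2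
      refine ⟨φ, fun x => ?_⟩
      rw [hφ, AddEquiv.apply_symm_apply, map_mul, ← mul_assoc, ← mul_assoc, mul_assoc c⁻¹, ← h2,
        inv_mul_cancel₀ hc0, one_mul]
    choose Φ hΦ using hS
    let Φh : S →* (GaloisField 2 q ≃+* GaloisField 2 q) :=
      { toFun := Φ
        map_one' := by
          ext x
          rw [hΦ]
          change c⁻¹ * ε (ε.symm (c * x)) = x
          rw [AddEquiv.apply_symm_apply, inv_mul_cancel_left₀ hc0]
        map_mul' := by
          intro x y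
          ext z
          rw [RingAut.mul_apply, hΦ, hΦ x, hΦ y, mul_inv_cancel_left₀ hc0,
            AddEquiv.symm_apply_apply]
          rfl }
    have hinj : Function.Injective Φh := by
      intro x y hxy
      apply Subtype.ext
      apply Subtype.ext
      ext v
      have h1 : Φ x (c⁻¹ * ε v) = Φ y (c⁻¹ * ε v) := DFunLike.congr_fun hxy _
      rw [hΦ, hΦ, mul_inv_cancel_left₀ hc0, AddEquiv.symm_apply_apply] at h1
      exact ε.injective (mul_left_cancel₀ (inv_ne_zero hc0) h1)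
    have hdvd := Subgroup.card_dvd_of_injective Φh hinj
    rw [card_ringAut_GF hq.ne_zero] at hdvd
    exact (Nat.dvd_prime hq).mp hdvd

end Cfsg.Agent.Lib.Helper54.Z32
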