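import Cfsg.Agent.Lib.Helper54.Z32R6b
import Cfsg.Agent.Lib.Helper24.Z32R6a
import Cfsg.Prelude.Def_Perm

set_option autoImplicit false

/-! Rung R6c of helper38's ladder towards S0732: assembly of the case of a regular normal
subgroup. -/

namespace Cfsg.Agent.Lib.Helper54.Z32

theorem coords_of_commGroup {S V0 : Type*} [Group S] [CommGroup V0] [Finite V0] {q : ℕ}
    (hq : q.Prime) (hV : Nat.card V0 = 2 ^ q) (hsq : ∀ v : V0, v * v = 1) (φ : S →* MulAut V0)
    (hφ : Function.Injective φ) (z : S)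
    (hz : ∀ g : S, g * z * g⁻¹ ∈ Subgroup.zpowers z)
    (htr : ∀ m : V0, m ≠ 1 → ∀ n : V0, n ≠ 1 → ∃ i : ℕ, φ (z ^ i) m = n)
    (v₁ : V0) (hv₁ : v₁ ≠ 1) :
    (∃ ε : V0 ≃ GaloisField 2 q, (∀ m n, ε (m * n) = ε m + ε n) ∧
      ∀ g : S, ∃ (a : (GaloisField 2 q)ˣ) (σ : GaloisField 2 q ≃+* GaloisField 2 q),
        ∀ v, ε (φ g v) = a * σ (ε v)) ∧
    (Nat.card {g : S // φ g v₁ = v₁} = 1 ∨ Nat.card {g : S // φ g v₁ = v₁} = q) := by
  classical
  obtain ⟨i⟩ : Nonempty (Module (ZMod 2) (Additive V0)) := ⟨AddCommGroup.zmodModule (n := 2) (by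
    intro x
    rw [two_nsmul]
    exact congrArg Additive.ofMul (hsq x.toMul))⟩
  let ρ : S →* (Additive V0 ≃ₗ[ZMod 2] Additive V0) :=
    { toFun := fun g => (MulEquiv.toAdditive (φ g)).toLinearEquiv (fun c x => ZMod.map_smul _ c x)
      map_one' := by
        apply LinearEquiv.ext
        intro v
        change Additive.ofMul (φ 1 v.toMul) = v
        rw [map_one]
        rfl
      map_mul' := by
        intro a b
        apply LinearEquiv.ext
        intro v
        change Additive.ofMul (φ (a * b) v.toMul) = _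
        rw [map_mul]
        rfl }
  have hρ : ∀ (g : S) (v : Additive V0), ρ g v = Additive.ofMul (φ g v.toMul) := fun _ _ => rfl
  have hρinj : Function.Injective ρ := by
    intro g g' h
    apply hφ
    ext v
    have := DFunLike.congr_fun h (Additive.ofMul v)
    rw [hρ, hρ] at this
    exact this
  obtain ⟨H, hH⟩ : ∃ H, H = ρ.range := ⟨_, rfl⟩
  subst hH
  obtain ⟨A, hA⟩ : ∃ A, A = (Subgroup.zpowers z).map ρ.rangeRestrict := ⟨_, rfl⟩
  have hAn : A.Normal := by
    constructor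
    intro x hx y
    rw [hA] at hx ⊢
    obtain ⟨w, hw, rfl⟩ := hx
    obtain ⟨g, rfl⟩ := ρ.rangeRestrict_surjective y
    obtain ⟨k, rfl⟩ := Subgroup.mem_zpowers_iff.mp hw
    refine ⟨g * z ^ k * g⁻¹, ?_, by simp⟩
    rw [← conj_zpow]
    exact Subgroup.zpow_mem _ (hz g) k
  have hAc : IsCyclic A := by
    rw [hA, MonoidHom.map_zpowers]
    infer_instance
  have hV' : Nat.card (Additive V0) = 2 ^ q := hV
  have htr' : ∀ v w : Additive V0, v ≠ 0 → w ≠ 0 →
      ∃ a ∈ A, ((a : ρ.range) : Additive V0 ≃ₗ[ZMod 2] Additive V0) v = w := by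
    intro v w hv hw
    obtain ⟨k, hk⟩ := htr v.toMul (fun h => hv (congrArg Additive.ofMul h)) w.toMul
      (fun h => hw (congrArg Additive.ofMul h))
    refine ⟨ρ.rangeRestrict (z ^ k), ?_, ?_⟩
    · rw [hA]
      exact ⟨z ^ k, Subgroup.pow_mem _ (Subgroup.mem_zpowers z) k, rfl⟩
    · change ρ (z ^ k) v = w
      rw [hρ, hk]
      rfl
  obtain ⟨⟨ε', hε'⟩, hcount⟩ := semilinear_GF hq hV' ρ.range A hAn hAc htr' (Additive.ofMul v₁)
    (fun h => hv₁ (congrArg Additive.toMul h))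
  constructor
  · refine ⟨Additive.ofMul.trans ε'.toEquiv, ?_, ?_⟩
    · intro m n
      change ε' (Additive.ofMul (m * n)) = ε' (Additive.ofMul m) + ε' (Additive.ofMul n)
      rw [ofMul_mul, map_add]
    · intro g
      obtain ⟨a, σ, h⟩ := hε' (ρ.rangeRestrict g)
      exact ⟨a, σ, fun v => h (Additive.ofMul v)⟩
  · have hcongr : Nat.card {g : S // φ g v₁ = v₁} =
        Nat.card {h : ρ.range // (h : Additive V0 ≃ₗ[ZMod 2] Additive V0) (Additive.ofMul v₁) =
          Additive.ofMul v₁} := by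
      apply Nat.card_congr
      refine Equiv.subtypeEquiv (Equiv.ofBijective ρ.rangeRestrict
        ⟨?_, ρ.rangeRestrict_surjective⟩) ?_
      · intro g g' h
        exact hρinj (congrArg Subtype.val h)
      · intro g
        change _ ↔ ρ g (Additive.ofMul v₁) = Additive.ofMul v₁
        rw [hρ]
        exact ⟨fun h => congrArg Additive.ofMul h, fun h => congrArg Additive.toMul h⟩
    rw [hcongr]
    exact hcount

theorem coords_of_group {S V0 : Type*} [Group S] [Group V0] [Finite V0] {q : ℕ}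
    (hq : q.Prime) (hV : Nat.card V0 = 2 ^ q) (hsq : ∀ v : V0, v * v = 1) (φ : S →* MulAut V0)
    (hφ : Function.Injective φ) (z : S)
    (hz : ∀ g : S, g * z * g⁻¹ ∈ Subgroup.zpowers z)
    (htr : ∀ m : V0, m ≠ 1 → ∀ n : V0, n ≠ 1 → ∃ i : ℕ, φ (z ^ i) m = n)
    (v₁ : V0) (hv₁ : v₁ ≠ 1) :
    (∃ ε : V0 ≃ GaloisField 2 q, (∀ m n, ε (m * n) = ε m + ε n) ∧
      ∀ g : S, ∃ (a : (GaloisField 2 q)ˣ) (σ : GaloisField 2 q ≃+* GaloisField 2 q),
        ∀ v, ε (φ g v) = a * σ (ε v)) ∧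
    (Nat.card {g : S // φ g v₁ = v₁} = 1 ∨ Nat.card {g : S // φ g v₁ = v₁} = q) := by
  have hinv : ∀ v : V0, v⁻¹ = v := fun v => inv_eq_of_mul_eq_one_left (hsq v)
  have hcomm : ∀ a b : V0, a * b = b * a := by
    intro a b
    rw [← hinv (a * b), mul_inv_rev, hinv, hinv]
  letI : CommGroup V0 := { ‹Group V0› with mul_comm := hcomm }
  exact coords_of_commGroup hq hV hsq φ hφ z hz htr v₁ hv₁

/-- R6 with the conclusion of R6a as a hypothesis -/
theorem semiaffine_of_regular_normal_aux {α : Type*} [Fintype α] [DecidableEq α] {p d : ℕ}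
    (hp : p.Prime) (hα : Fintype.card α = p + 1) (G : Subgroup (Equiv.Perm α))
    (N : Subgroup G) (hN : N.Normal) (htr : MulAction.IsPretransitive N α)
    (hreg : ∀ a : α, MulAction.stabilizer N a = ⊥) (a : α)
    (h6a : (∀ n ∈ N, n * n = 1) ∧ (∃ q : ℕ, q.Prime ∧ p + 1 = 2 ^ q) ∧ ∃ z : G, z • a = a ∧
      (∀ g : G, g • a = a → g * z * g⁻¹ ∈ Subgroup.zpowers z) ∧
      (∀ m ∈ N, m ≠ 1 → ∀ n ∈ N, n ≠ 1 → ∃ i : ℕ, z ^ i * m * (z ^ i)⁻¹ = n) ∧
      Nat.card ↥(MulAction.stabilizer G a) = p * d) :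
    ∃ q : ℕ, q.Prime ∧ p + 1 = 2 ^ q ∧ (d = 1 ∨ d = q) ∧ ∃ e : α ≃ GaloisField 2 q,
      ∀ g : G, (e.symm.trans (((g : Equiv.Perm α)).trans e)) ∈
        Cfsg.semiaffineGroup (GaloisField 2 q) := by
  classical
  obtain ⟨hsq, ⟨q, hq, hpq⟩, z, hza, hznorm, hztr, hcardS⟩ := h6a
  -- the regular bijection
  have hβ : Function.Bijective (fun n : N => n • a) := by
    constructor
    · intro n n' h
      have h1 : n'⁻¹ * n ∈ MulAction.stabilizer N a := by
        rw [MulAction.mem_stabilizer_iff, mul_smul]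
        have : n • a = n' • a := h
        rw [this, inv_smul_smul]
      rw [hreg, Subgroup.mem_bot] at h1
      exact (inv_mul_eq_one.mp h1).symm
    · intro x
      exact MulAction.exists_smul_eq N a x
  obtain ⟨β, hβ'⟩ : ∃ β : N ≃ α, ∀ n : N, β n = n • a := ⟨Equiv.ofBijective _ hβ, fun _ => rfl⟩
  have hcardN : Nat.card N = 2 ^ q := by
    rw [Nat.card_congr β, Nat.card_eq_fintype_card, hα, hpq]
  obtain ⟨S, hS⟩ : ∃ S, S = MulAction.stabilizer G a := ⟨_, rfl⟩
  have hSmem : ∀ g : G, g ∈ S ↔ g • a = a := by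
    intro g
    rw [hS, MulAction.mem_stabilizer_iff]
  obtain ⟨φ, hφ'⟩ : ∃ φ : S →* MulAut N, ∀ (g : S) (n : N),
      ((φ g n : N) : G) = (g : G) * (n : G) * (g : G)⁻¹ :=
    ⟨(MulAut.conjNormal (H := N)).comp S.subtype, fun g n => rfl⟩
  have hequi : ∀ (g : S) (n : N), (φ g n) • a = (g : G) • (n • a) := by
    intro g n
    have h1 : (φ g n) • a = ((φ g n : N) : G) • a := rfl
    have h2 : (g : G)⁻¹ • a = a := by
      rw [inv_smul_eq_iff]
      exact ((hSmem g).mp g.2).symm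
    rw [h1, hφ', mul_smul, mul_smul, h2]
    rfl
  have hφinj : Function.Injective φ := by
    intro g g' h
    apply Subtype.ext
    apply Subtype.ext
    ext x
    obtain ⟨n, rfl⟩ := hβ.2 x
    have h1 := hequi g n
    have h2 := hequi g' n
    rw [h] at h1
    exact h1.symm.trans h2
  obtain ⟨zS, hzS⟩ : ∃ zS : S, (zS : G) = z := ⟨⟨z, (hSmem z).mpr hza⟩, rfl⟩
  have hz1 : ∀ g : S, g * zS * g⁻¹ ∈ Subgroup.zpowers zS := by
    intro g
    obtain ⟨k, hk⟩ := Subgroup.mem_zpowers_iff.mp (hznorm g ((hSmem g).mp g.2))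
    rw [Subgroup.mem_zpowers_iff]
    refine ⟨k, Subtype.ext ?_⟩
    simp only [Subgroup.coe_zpow, Subgroup.coe_mul, Subgroup.coe_inv, hzS]
    exact hk
  have htr1 : ∀ m : N, m ≠ 1 → ∀ n : N, n ≠ 1 → ∃ i : ℕ, φ (zS ^ i) m = n := by
    intro m hm n hn
    obtain ⟨i, hi⟩ := hztr m m.2 (fun h => hm (Subtype.ext h)) n n.2 (fun h => hn (Subtype.ext h))
    refine ⟨i, Subtype.ext ?_⟩
    rw [hφ']
    simp only [Subgroup.coe_pow, hzS]
    exact hi
  have hsq1 : ∀ v : N, v * v = 1 := fun v => Subtype.ext (hsq v v.2)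
  obtain ⟨v₁, hv₁⟩ : ∃ v₁ : N, v₁ ≠ 1 := by
    have h1 : 1 < Nat.card N := by
      rw [hcardN]
      exact Nat.one_lt_two_pow hq.ne_zero
    haveI : Finite N := Nat.finite_of_card_ne_zero (by omega)
    haveI := (Finite.one_lt_card_iff_nontrivial).mp h1
    exact exists_ne 1
  obtain ⟨⟨ε, hadd, hsemi⟩, hcount⟩ := coords_of_group hq hcardN hsq1 φ hφinj zS hz1 htr1 v₁ hv₁
  -- the order of the stabiliser of the second point
  have hd : Nat.card {g : S // φ g v₁ = v₁} = d := by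
    obtain ⟨b, hb⟩ : ∃ b, b = v₁ • a := ⟨_, rfl⟩
    have hba : b ≠ a := by
      intro h
      apply hv₁
      apply hβ.1
      change v₁ • a = (1 : N) • a
      rw [one_smul, ← hb, h]
    have e1 : Nat.card {g : S // φ g v₁ = v₁} = Nat.card (MulAction.stabilizer S b) := by
      apply Nat.card_congr
      refine Equiv.subtypeEquivRight (fun g => ?_)
      rw [MulAction.mem_stabilizer_iff]
      have h1 : g • b = (φ g v₁) • a := by
        rw [hequi, hb]
        rfl
      rw [h1, hb]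
      exact ⟨fun h => by rw [h], fun h => hβ.1 h⟩
    have e2 : MulAction.orbit S b = {a}ᶜ := by
      ext x
      simp only [Set.mem_compl_iff, Set.mem_singleton_iff]
      constructor
      · rintro ⟨g, rfl⟩ h
        apply hba
        have h2 : (g : G) • a = a := (hSmem g).mp g.2
        have h3 : (g : G) • b = (g : G) • a := by rw [h2]; exact h
        exact smul_left_cancel _ h3
      · intro hx
        obtain ⟨n, rfl⟩ := hβ.2 x
        have hn : n ≠ 1 := by
          rintro rfl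
          exact hx (one_smul _ _)
        obtain ⟨i, hi⟩ := htr1 v₁ hv₁ n hn
        refine ⟨zS ^ i, ?_⟩
        change ((zS ^ i : S) : G) • b = n • a
        rw [hb, ← hequi, hi]
    have e3 := MulAction.index_stabilizer S b
    rw [e2, Set.ncard_compl, Set.ncard_singleton, Nat.card_eq_fintype_card, hα,
      Nat.add_sub_cancel] at e3
    have e4 := Subgroup.card_mul_index (MulAction.stabilizer S b)
    rw [e3, hS, hcardS, ← hS, mul_comm] at e4
    rw [e1]
    exact Nat.eq_of_mul_eq_mul_left hp.pos e4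
  rw [hd] at hcount
  refine ⟨q, hq, hpq, hcount, β.symm.trans ε, fun g => ?_⟩
  obtain ⟨n₀, hn₀⟩ := MulAction.exists_smul_eq N a (g • a)
  have hg₁ : (n₀ : G)⁻¹ * g ∈ S := by
    rw [hSmem, mul_smul, ← hn₀]
    exact inv_smul_smul _ _
  obtain ⟨c, σ, hσ⟩ := hsemi ⟨_, hg₁⟩
  refine ⟨c, ε n₀, σ, fun x => ?_⟩
  change ε (β.symm ((g : Equiv.Perm α) (β (ε.symm x)))) = _
  have h1 : (g : Equiv.Perm α) (β (ε.symm x)) = β (n₀ * φ ⟨_, hg₁⟩ (ε.symm x)) := by
    rw [hβ', hβ', mul_smul, hequi]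
    change g • ((ε.symm x) • a) = (n₀ : G) • (((n₀ : G)⁻¹ * g) • ((ε.symm x) • a))
    rw [mul_smul, smul_inv_smul]
  rw [h1, Equiv.symm_apply_apply, hadd, hσ, Equiv.apply_symm_apply, add_comm]

/-- **R6.** -/
theorem semiaffine_of_regular_normal {α : Type*} [Fintype α] [DecidableEq α] {p d : ℕ}
    (hp : p.Prime) (hp2 : p ≠ 2) (hα : Fintype.card α = p + 1) (G : Subgroup (Equiv.Perm α))
    [MulAction.IsPretransitive G α] (hG : Nat.card G = (p + 1) * p * d) (hd : d < p)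
    (N : Subgroup G) (hN : N.Normal) (htr : MulAction.IsPretransitive N α)
    (hreg : ∀ a : α, MulAction.stabilizer N a = ⊥) :
    ∃ q : ℕ, q.Prime ∧ p + 1 = 2 ^ q ∧ (d = 1 ∨ d = q) ∧ ∃ e : α ≃ GaloisField 2 q,
      ∀ g : G, (e.symm.trans (((g : Equiv.Perm α)).trans e)) ∈
        Cfsg.semiaffineGroup (GaloisField 2 q) := by
  obtain ⟨a⟩ : Nonempty α := by
    rw [← Fintype.card_pos_iff, hα]
    omega
  exact semiaffine_of_regular_normal_aux hp hα G N hN htr hreg a
    (Cfsg.Agent.Lib.Helper24.Z32.regular_normal_facts hp hp2 hα G hG hd N hN htr hreg a)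

end Cfsg.Agent.Lib.Helper54.Z32
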