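import Cfsg.Agent.Lib.Helper7.SL2Center
import Cfsg.Agent.Lib.Helper6.SLEquiv

set_option autoImplicit false

/-! Rung R7 of helper38's ladder towards S0732: `PSL₂(K)` of the order of `PSL₂(p)` is `PSL₂(p)`. -/

namespace Cfsg.Agent.Lib.Helper54.Z32

theorem cubic_inj {r p : ℕ} (hr : 1 ≤ r) (hp : 1 ≤ p)
    (h : r * (r ^ 2 - 1) = (p + 1) * p * (p - 1)) : r = p := by
  obtain ⟨r, rfl⟩ : ∃ r', r = r' + 1 := ⟨r - 1, by omega⟩
  obtain ⟨p, rfl⟩ : ∃ p', p = p' + 1 := ⟨p - 1, by omega⟩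
  have e1 : (r + 1) ^ 2 - 1 = r * (r + 2) := by
    have : (r + 1) ^ 2 = r * (r + 2) + 1 := by ring
    omega
  rw [e1, Nat.add_sub_cancel] at h
  rcases lt_trichotomy r p with hlt | heq | hgt
  · exfalso
    have h1 : (r + 1) * (r * (r + 2)) < (p + 1 + 1) * (p + 1) * p := by
      have a1 : r + 1 ≤ p := hlt
      have a2 : (r + 1) * (r * (r + 2)) ≤ p * (p * (p + 1)) := by
        apply Nat.mul_le_mul a1
        apply Nat.mul_le_mul hlt.le
        omega
      have a3 : p * (p * (p + 1)) < (p + 1 + 1) * (p + 1) * p := by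
        have hp0 : 0 < p := by omega
        nlinarith
      omega
    omega
  · rw [heq]
  · exfalso
    have h1 : (p + 1 + 1) * (p + 1) * p < (r + 1) * (r * (r + 2)) := by
      have a1 : p + 1 ≤ r := hgt
      have a2 : (p + 1 + 1) * (p + 1) * p ≤ (r + 1) * r * r := by
        apply Nat.mul_le_mul _ hgt.le
        apply Nat.mul_le_mul _ a1
        omega
      have a3 : (r + 1) * r * r < (r + 1) * (r * (r + 2)) := by
        have hr0 : 0 < r := by omega
        nlinarith
      omega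
    omega

theorem psl_prime_of_card {G K : Type*} [Group G] [Field K] [Fintype K] (hK : ringChar K ≠ 2)
    {p : ℕ} [Fact p.Prime] (hG : 2 * Nat.card G = (p + 1) * p * (p - 1))
    (e : G ≃* Matrix.ProjectiveSpecialLinearGroup (Fin 2) K) :
    Nonempty (G ≃* Matrix.ProjectiveSpecialLinearGroup (Fin 2) (ZMod p)) := by
  have h2 : (2 : K) ≠ 0 := Ring.two_ne_zero hK
  have h1 := Cfsg.Agent.Lib.Helper7.card_PSL2 (F := K) h2
  rw [← Nat.card_congr e.toEquiv, mul_comm, hG] at h1
  have hcard : Fintype.card K = p :=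
    cubic_inj Fintype.card_pos (Fact.out : p.Prime).one_lt.le h1.symm
  exact ⟨e.trans (Cfsg.Agent.Lib.Helper6.pslEquiv (ZMod.ringEquivOfPrime K Fact.out hcard).symm)⟩
end Cfsg.Agent.Lib.Helper54.Z32
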