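import Cfsg.Agent.S0727
import Cfsg.Agent.Lib.Helper18.SL2.PartCFinal

set_option autoImplicit false

/-! Rung R8 of helper38's ladder towards S0732: the symmetric group of degree three is
`PGL₂(2)`. -/

namespace Cfsg.Agent.Lib.Helper54.Z32

theorem pgl_two {α : Type*} [Fintype α] [DecidableEq α] (hα : Fintype.card α = 3)
    (G : Subgroup (Equiv.Perm α)) (hG : Nat.card G = 6) :
    Nonempty (G ≃* Matrix.ProjGenLinGroup (Fin 2) (ZMod 2)) := by
  have htop : G = ⊤ := by
    apply Subgroup.eq_top_of_card_eq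
    rw [hG, Nat.card_eq_fintype_card, Fintype.card_perm, hα]
    rfl
  subst htop
  have h3 : MulAction.IsMultiplyPretransitive (⊤ : Subgroup (Equiv.Perm α)) α 3 := by
    have h0 : MulAction.IsMultiplyPretransitive (Equiv.Perm α) α 3 :=
      Equiv.Perm.isMultiplyPretransitive α 3
    refine ⟨fun x y => ?_⟩
    obtain ⟨g, hg⟩ := h0.exists_smul_eq x y
    exact ⟨⟨g, Subgroup.mem_top g⟩, hg⟩
  have hsharp : ∀ x : Fin 3 ↪ α, MulAction.stabilizer (⊤ : Subgroup (Equiv.Perm α)) x = ⊥ := by
    intro x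
    rw [eq_bot_iff]
    intro g hg
    rw [MulAction.mem_stabilizer_iff] at hg
    rw [Subgroup.mem_bot]
    have hsurj : Function.Surjective x := by
      have : Function.Bijective x := by
        rw [Fintype.bijective_iff_injective_and_card]
        exact ⟨x.injective, by rw [Fintype.card_fin, hα]⟩
      exact this.2
    ext a
    obtain ⟨i, rfl⟩ := hsurj a
    have := DFunLike.congr_fun hg i
    exact this
  obtain ⟨F, _, _, hF, ⟨e⟩⟩ := Cfsg.Agent.S0727.result (f := 1) le_rfl (by rw [hα]; rfl) ⊤ h3 hsharp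
  haveI : Fact (Nat.Prime 2) := ⟨Nat.prime_two⟩
  exact ⟨e.trans (Cfsg.Agent.Lib.Helper18.SL2.pglEquiv
    (ZMod.ringEquivOfPrime F Nat.prime_two (by rw [hF, pow_one])).symm)⟩

end Cfsg.Agent.Lib.Helper54.Z32
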